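import Cfsg.Agent.Blocks.DegreePMinusTwo.Sector
import Cfsg.Agent.Blocks.TwoPrimeOrder.Basic

/-!
A perfect group with a faithful irreducible character of degree `p - 2` has trivial centre: the
sector of that character and the principal sector give different class multiplication constants.
-/

set_option autoImplicit false
set_option linter.unusedSectionVars false
set_option linter.style.haveILetI false

namespace Cfsg.Agent.Blocks.DegreePMinusTwo

open Cfsg Cfsg.Agent Cfsg.Agent.Blocks Cfsg.Agent.BlockChar Cfsg.Agent.Chars2.Cyc Function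
  Screen.BrauerP
open scoped ComplexConjugate

universe u

section numeric

theorem upper_large {p k s σ : ℝ} (hp : 11 ≤ p) (hk : 1 ≤ k) (hs : |s| ≤ k + 1) (hσ : σ ^ 2 = 1) :
    s ^ 2 / (p * k + 1) - (s + σ) ^ 2 / (p * k + p - 1) ≤ 1 / 2 := by
  have hpk : (0 : ℝ) ≤ p * k := mul_nonneg (by linarith) (by linarith)
  have hd2 : (0 : ℝ) < p * k + 1 := by linarith
  have hd1 : (0 : ℝ) < p * k + p - 1 := by linarith
  rw [div_sub_div _ _ hd2.ne' hd1.ne', div_le_iff₀ (mul_pos hd2 hd1)]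
  obtain ⟨h1, h2⟩ := abs_le.1 hs
  have hsq : s ^ 2 ≤ (k + 1) ^ 2 := by nlinarith
  have hσ' : σ = 1 ∨ σ = -1 := sq_eq_one_iff.1 hσ
  have hcross : -(2 * (s * σ)) ≤ 2 * (k + 1) := by rcases hσ' with e | e <;> rw [e] <;> linarith
  have key : 2 * (p - 2) * (k + 1) ^ 2 + 2 * (2 * k + 1) * (p * k + 1) ≤
      (p * k + 1) * (p * k + p - 1) := by
    nlinarith [mul_nonneg (sub_nonneg.2 hp) (sub_nonneg.2 hk),
      mul_nonneg (mul_nonneg (sub_nonneg.2 hp) (sub_nonneg.2 hk)) (sub_nonneg.2 hk),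
      mul_nonneg (mul_nonneg (sub_nonneg.2 hp) (sub_nonneg.2 hp)) (sub_nonneg.2 hk),
      mul_nonneg (mul_nonneg (sub_nonneg.2 hp) (sub_nonneg.2 hp))
        (mul_nonneg (sub_nonneg.2 hk) (sub_nonneg.2 hk)),
      mul_nonneg (sub_nonneg.2 hk) (sub_nonneg.2 hk),
      mul_nonneg (sub_nonneg.2 hp) (sub_nonneg.2 hp)]
  have e1 : (p - 2) * s ^ 2 ≤ (p - 2) * (k + 1) ^ 2 :=
    mul_le_mul_of_nonneg_left hsq (by linarith)
  have e2 : (-(2 * (s * σ))) * (p * k + 1) ≤ (2 * (k + 1)) * (p * k + 1) :=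
    mul_le_mul_of_nonneg_right hcross hd2.le
  have e3 : (s + σ) ^ 2 = s ^ 2 + 2 * (s * σ) + 1 := by rw [add_sq, hσ]; ring
  rw [e3]
  nlinarith

theorem upper_seven {k s : ℝ} (hk : 1 ≤ k) (h1 : -(k - 1) ≤ s) (h2 : s ≤ k + 1) :
    s ^ 2 / (7 * k + 1) - (s + 1) ^ 2 / (7 * k + 6) < 2 / 5 := by
  have hd2 : (0 : ℝ) < 7 * k + 1 := by linarith
  have hd1 : (0 : ℝ) < 7 * k + 6 := by linarith
  rw [div_sub_div _ _ hd2.ne' hd1.ne', div_lt_iff₀ (mul_pos hd2 hd1)]
  rcases le_total 0 s with h | h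
  · nlinarith [mul_le_mul h2 h2 h (by linarith), mul_nonneg h hd2.le,
      mul_nonneg (sub_nonneg.2 hk) (sub_nonneg.2 hk)]
  · have hw : -s ≤ k - 1 := by linarith
    nlinarith [mul_le_mul hw hw (neg_nonneg.2 h) (by linarith),
      mul_le_mul_of_nonneg_right hw hd2.le, mul_nonneg (sub_nonneg.2 hk) (sub_nonneg.2 hk)]

theorem lower_neg {p k s : ℝ} (hp : 7 ≤ p) (hk : 1 ≤ k) (hs : |s| ≤ k - 1) :
    1 - 2 / p ≤ 1 + -1 * (s ^ 2 / (p * k + -1) - (s + -1) ^ 2 / (p * k + -1 + -1)) := by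
  have hpk : p ≤ p * k := le_mul_of_one_le_right (by linarith) hk
  have hd : (0 : ℝ) < p * k + -1 := by linarith
  have hd' : (0 : ℝ) < p * k + -1 + -1 := by linarith
  obtain ⟨h1, h2⟩ := abs_le.1 hs
  have hmono : s ^ 2 / (p * k + -1) ≤ s ^ 2 / (p * k + -1 + -1) :=
    div_le_div_of_nonneg_left (sq_nonneg s) hd' (by linarith)
  have e : s ^ 2 / (p * k + -1 + -1) - (s + -1) ^ 2 / (p * k + -1 + -1) ≤ 2 / p := by
    rw [← sub_div, div_le_div_iff₀ hd' (by linarith)]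
    nlinarith [mul_le_mul_of_nonneg_right h2 (show (0 : ℝ) ≤ p by linarith)]
  linarith

theorem lower_pos {p k s : ℝ} (hp : 7 ≤ p) (hk : 1 ≤ k) (hs : |s| ≤ k + 1) :
    1 - 5 / (p + 2) ≤ 1 + 1 * (s ^ 2 / (p * k + 1) - (s + 1) ^ 2 / (p * k + 1 + 1)) := by
  have hpk : p ≤ p * k := le_mul_of_one_le_right (by linarith) hk
  have hd : (0 : ℝ) < p * k + 1 := by linarith
  have hd' : (0 : ℝ) < p * k + 1 + 1 := by linarith
  obtain ⟨h1, h2⟩ := abs_le.1 hs
  have hmono : s ^ 2 / (p * k + 1 + 1) ≤ s ^ 2 / (p * k + 1) :=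
    div_le_div_of_nonneg_left (sq_nonneg s) hd (by linarith)
  have e : (s + 1) ^ 2 / (p * k + 1 + 1) - s ^ 2 / (p * k + 1 + 1) ≤ 5 / (p + 2) := by
    rw [← sub_div, div_le_div_iff₀ hd' (by linarith)]
    nlinarith [mul_le_mul_of_nonneg_right h2 (show (0 : ℝ) ≤ p + 2 by linarith),
      mul_nonneg (sub_nonneg.2 hk) (show (0 : ℝ) ≤ 3 * p - 4 by linarith)]
  linarith

theorem gap_pos {p : ℝ} (hp : 11 ≤ p) : 5 / (p + 2) + 1 / (p - 2) < 1 / 2 := by
  rw [div_add_div _ _ (by linarith) (by linarith), div_lt_iff₀ (mul_pos (by linarith) (by linarith))]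
  nlinarith

theorem gap_neg {p : ℝ} (hp : 11 ≤ p) : 2 / p + 1 / (p - 2) < 1 / 2 := by
  rw [div_add_div _ _ (by linarith) (by linarith), div_lt_iff₀ (mul_pos (by linarith) (by linarith))]
  nlinarith

theorem lower_seven {k s : ℝ} (hk : 1 ≤ k) (hs : |s| ≤ k + 1)
    (h1 : k = 1 → s = 0) (h2 : k = 2 → s = 3 ∨ s ≤ 0) (h3 : k = 1 ∨ k = 2 ∨ 3 ≤ k) :
    3 / 5 ≤ 1 + 1 * (s ^ 2 / (7 * k + 1) - (s + 1) ^ 2 / (7 * k + 1 + 1)) := by
  have hd : (0 : ℝ) < 7 * k + 1 := by linarith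
  have hd' : (0 : ℝ) < 7 * k + 1 + 1 := by linarith
  obtain ⟨l1, l2⟩ := abs_le.1 hs
  have hmono : s ^ 2 / (7 * k + 1 + 1) ≤ s ^ 2 / (7 * k + 1) :=
    div_le_div_of_nonneg_left (sq_nonneg s) hd (by linarith)
  have hneg : s ≤ 0 → (s + 1) ^ 2 / (7 * k + 1 + 1) - s ^ 2 / (7 * k + 1) ≤ 2 / 5 := fun h => by
    have e : (s + 1) ^ 2 / (7 * k + 1 + 1) - s ^ 2 / (7 * k + 1 + 1) ≤ 2 / 5 := by
      rw [← sub_div, div_le_iff₀ hd']
      nlinarith
    linarith
  suffices (s + 1) ^ 2 / (7 * k + 1 + 1) - s ^ 2 / (7 * k + 1) ≤ 2 / 5 by linarith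
  rcases h3 with e | e | e
  · exact hneg (h1 e).le
  · rcases h2 e with f | f
    · rw [e, f]; norm_num
    · exact hneg f
  · have f : (s + 1) ^ 2 / (7 * k + 1 + 1) - s ^ 2 / (7 * k + 1 + 1) ≤ 2 / 5 := by
      rw [← sub_div, div_le_iff₀ hd']
      nlinarith
    linarith

end numeric

variable {G : Type u} [Group G] [Fintype G] {p m K : ℕ} [hp : Fact p.Prime] {M : Ideal AlgInt}
  [M.IsMaximal] {x : G} {σ : ℂ ≃+* ℂ} {H : Subgroup G} [Fintype H] {φ : IrrCharacter G}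

/-- The term of the class multiplication constant. -/
noncomputable def term (x u : G) (χ : IrrCharacter G) : ℂ :=
  (χ : G → ℂ) u * (χ : G → ℂ) x * conj ((χ : G → ℂ) u) / (χ : G → ℂ) 1

namespace Core

theorem sum_range_pow (D : Core M p m K x σ H φ) (χ : IrrCharacter G) :
    ∑ j ∈ Finset.range p, (χ : G → ℂ) (x ^ j) = (p : ℂ) * D.S.eigMult χ 0 := by
  rw [← HalfDegree.sum_range_eq_sum_zmod (p := p) (fun i => (χ : G → ℂ) (x ^ i)), D.S.sum_values_pow]

/-- The value at an involution inverting `x`. -/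
theorem split (D : Core M p m K x σ H φ) (χ : IrrCharacter G) {u : G} (huu : u * u = 1)
    (hux : u * x * u = x⁻¹) :
    ∃ s : ℤ, (χ : G → ℂ) u = s ∧ |s| ≤ D.S.eigMult χ 0 ∧
      (4 : ℤ) ∣ (charDegree (χ : G → ℂ) : ℤ) - s := by
  obtain ⟨a, b, h1, h2⟩ := TwoPrimeOrder.inverting_split χ D.S.hx D.p_odd huu hux
  rw [D.sum_range_pow] at h1
  have h3 := mul_left_cancel₀ (Nat.cast_ne_zero.2 hp.out.ne_zero) h1
  have h4 : D.S.eigMult χ 0 = a + b := by exact_mod_cast h3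
  obtain ⟨β, hβ⟩ := TwoPrimeOrder.involution_mod_four D.hperf χ huu (apply_one_eq_deg χ)
  refine ⟨(a : ℤ) - b, by rw [h2]; push_cast; ring, abs_le.2 ⟨by omega, by omega⟩, (β : ℤ), ?_⟩
  rw [h2] at hβ
  have h5 : ((((a : ℤ) - b : ℤ)) : ℂ) = (((charDegree (χ : G → ℂ) : ℤ) - 4 * β : ℤ) : ℂ) := by
    push_cast; exact hβ
  have h6 := Int.cast_injective h5
  omega

/-- A character constant on the powers of `x`. -/
theorem eig_zero_of_const (D : Core M p m K x σ H φ) (χ : IrrCharacter G) {v : ℤ}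
    (h : ∀ j : ℕ, (j : ZMod p) ≠ 0 → (χ : G → ℂ) (x ^ j) = v) :
    (p : ℤ) * D.S.eigMult χ 0 = charDegree (χ : G → ℂ) + ((p : ℤ) - 1) * v := by
  classical
  have h1 := D.S.sum_values_pow χ
  rw [← Finset.add_sum_erase _ _ (Finset.mem_univ (0 : ZMod p)), ZMod.val_zero, pow_zero,
    apply_one_eq_deg,
    Finset.sum_congr rfl fun j hj => h j.val (zmod_val_ne j (Finset.mem_erase.1 hj).1),
    Finset.sum_const, Finset.card_erase_of_mem (Finset.mem_univ _), Finset.card_univ, ZMod.card,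
    nsmul_eq_mul, Nat.cast_sub hp.out.one_le, Nat.cast_one] at h1
  apply Int.cast_injective (α := ℂ)
  push_cast
  linear_combination -h1

/-- The value at an inverting involution of `φ`. -/
theorem phi_u (D : Core M p m K x σ H φ) {u : G} (huu : u * u = 1) (hux : u * x * u = x⁻¹) :
    ∃ s : ℤ, (φ : G → ℂ) u = s ∧ (s = 1 ∨ s = -1) ∧ (4 : ℤ) ∣ ((p : ℤ) - 2) - s := by
  obtain ⟨a, ha, heig, -, -, -⟩ := local_shape D.S D.hdeg D.hns
  obtain ⟨s, hs, hsb, hs4⟩ := D.split φ huu hux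
  rw [heig, if_neg (by
    rintro (h' | h')
    · exact ha h'.symm
    · exact ha (neg_eq_zero.1 h'.symm))] at hsb
  rw [show (charDegree (φ : G → ℂ) : ℤ) = (p : ℤ) - 2 by have := D.hdeg; omega] at hs4
  refine ⟨s, hs, ?_, hs4⟩
  obtain ⟨h1, h2⟩ := abs_le.1 hsb
  push_cast at h1 h2
  obtain ⟨c, hc⟩ := hs4
  obtain ⟨l, hl⟩ := D.p_odd
  omega

/-- Only the trivial central translate is counted. -/
theorem sum_term_center (D : Core M p m K x σ H φ) {u : G} (huu : u * u = 1)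
    (z : Subgroup.center G) (hz : z ≠ 1) : ∑ χ, term x u χ * lam χ z = 0 := by
  classical
  have h := TwoPrimeOrder.translate_count u u (x * (z : G))
  have h0 : ∀ a : G, ¬ (IsConj u a ∧ IsConj u (a * (x * (z : G)))) := by
    rintro a ⟨h1, h2⟩
    refine hz (Subtype.ext ?_)
    have hsq : ∀ b, IsConj u b → b * b = 1 := fun b hb => by
      obtain ⟨c, hc⟩ := isConj_iff.1 hb
      rw [← hc, show c * u * c⁻¹ * (c * u * c⁻¹) = c * (u * u) * c⁻¹ by group, huu]; group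
    have ha := hsq a h1
    have hax := hsq _ h2
    have hxp : x ^ p = 1 := by rw [← D.S.hx, pow_orderOf_eq_one]
    have e : a * x * a⁻¹ * (z : G) = x⁻¹ * (z : G)⁻¹ := by
      have h3 : a * (x * (z : G)) * a = (x * (z : G))⁻¹ :=
        eq_inv_of_mul_eq_one_left (by rw [mul_assoc]; exact hax)
      rw [mul_inv_rev, ← Subgroup.mem_center_iff.1 (inv_mem z.2) x⁻¹] at h3
      rw [← h3, inv_eq_of_mul_eq_one_right ha, mul_assoc (a * x) a,
        Subgroup.mem_center_iff.1 z.2 a]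
      group
    have h4 := (D.mul_center_inj (by rw [conj_pow, hxp, mul_one, mul_inv_cancel])
      (by rw [inv_pow, hxp, inv_one]) z.2 (inv_mem z.2) e).2
    exact D.eq_one_of_sq z.2 (by nth_rewrite 2 [h4]; rw [mul_inv_cancel])
  simp only [h0, Finset.filter_false, Finset.card_empty, Nat.cast_zero, mul_zero] at h
  have hI : ((Subgroup.centralizer ({u} : Set G)).index : ℂ) ≠ 0 :=
    Nat.cast_ne_zero.2 Subgroup.index_ne_zero_of_finite
  rw [← (mul_eq_zero.1 h.symm).resolve_left hI]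
  refine Finset.sum_congr rfl fun χ _ => ?_
  rw [apply_mul_center, term]
  ring

/-- All sectors give the same constant. -/
theorem sector_term (D : Core M p m K x σ H φ) {u : G} (huu : u * u = 1) (ψ : IrrCharacter G) :
    (Nat.card (Subgroup.center G) : ℂ) * ∑ χ ∈ sector ψ, term x u χ = ∑ χ, term x u χ := by
  classical
  rw [sector_sum, Finset.sum_eq_single (1 : Subgroup.center G)]
  · simp only [inv_one, map_one, one_mul, mul_one]
  · intro z _ hz
    rw [D.sum_term_center huu z hz, mul_zero]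
  · exact fun h => absurd (Finset.mem_univ _) h

theorem exists_signed (D : Core M p m K x σ H φ) {z : Subgroup.center G} (hz : z ≠ 1) :
    ∃ (μ₁ μ₂ : IrrCharacter G) (k : ℕ), μ₁ ≠ μ₂ ∧ μ₁ ∈ sector φ ∧ μ₂ ∈ sector φ ∧
      μ₁ ∉ D.fam ∧ μ₂ ∉ D.fam ∧ 1 ≤ k ∧
      (∀ j : ℕ, (j : ZMod p) ≠ 0 → (μ₁ : G → ℂ) (x ^ j) = ((-1 : ℤ) : ℂ)) ∧
      (∀ j : ℕ, (j : ZMod p) ≠ 0 → (μ₂ : G → ℂ) (x ^ j) = ((1 : ℤ) : ℂ)) ∧
      (charDegree (μ₁ : G → ℂ) : ℤ) = p * k + p - 1 ∧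
      (charDegree (μ₂ : G → ℂ) : ℤ) = p * k + 1 ∧
      (∀ χ ∈ sector φ, χ ∉ D.fam → χ ≠ μ₁ → χ ≠ μ₂ → (χ : G → ℂ) x = 0) ∧
      ∀ g : G, ¬ p ∣ orderOf g →
        (μ₁ : G → ℂ) g = (φ : G → ℂ) g + (μ₂ : G → ℂ) g := by
  classical
  have hne1 : ∀ χ ∈ sector φ, 2 ≤ charDegree (χ : G → ℂ) := by
    intro χ hχ
    refine TwoPrimeOrder.two_le_deg D.hperf χ fun h => hz (Subtype.ext ?_)
    have h1 : lam φ z = 1 := by rw [← mem_sector.1 hχ, h, lam_one]
    exact D.hfaith _ ((div_eq_one_iff_eq (Chars.irr_apply_one_ne_zero φ.2)).1 h1)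
  obtain ⟨μ₁, μ₂, ε₁, ε₂, m₁, m₂, hne, hs₁, hs₂, hf₁, hf₂, he₁, he₂, hv₁, hv₂, hd₁, hd₂, hoth,
    hrel⟩ := D.exists_pair
  have h1 := hrel 1 (by rw [orderOf_one]; exact hp.out.not_dvd_one)
  rw [D.phi_one, apply_one_eq_deg μ₁, apply_one_eq_deg μ₂] at h1
  have h1' : ((p - 2 : ℕ) : ℤ) + ε₁ * charDegree (μ₁ : G → ℂ) +
      ε₂ * charDegree (μ₂ : G → ℂ) = 0 := by exact_mod_cast h1
  have g1 := hne1 μ₁ hs₁
  have g2 := hne1 μ₂ hs₂
  have hp5 := D.hp5
  have hm : ∀ {m : ℕ} {ε : ℤ} {d : ℕ}, 2 ≤ d → (ε = 1 ∨ ε = -1) → (d : ℤ) = p * m + ε →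
      1 ≤ m := by
    intro m ε d hd he h
    rcases Nat.eq_zero_or_pos m with e | e
    · subst e; simp at h; omega
    · exact e
  have g1' := hm g1 he₁ hd₁
  have g2' := hm g2 he₂ hd₂
  have hge : ∀ m : ℕ, 1 ≤ m → (p : ℤ) ≤ p * m := fun m hm => by
    exact_mod_cast Nat.le_mul_of_pos_right p hm
  rcases he₁ with rfl | rfl <;> rcases he₂ with rfl | rfl
  · exfalso; omega
  · refine ⟨μ₂, μ₁, m₁, hne.symm, hs₂, hs₁, hf₂, hf₁, g1', hv₂, hv₁, by omega, hd₁,
      fun χ a b c d => hoth χ a b d c, fun g hg => ?_⟩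
    have h := hrel g hg
    push_cast at h
    linear_combination -h
  · refine ⟨μ₁, μ₂, m₂, hne, hs₁, hs₂, hf₁, hf₂, g2', hv₁, hv₂, by omega, hd₂, hoth, fun g hg => ?_⟩
    have h := hrel g hg
    push_cast at h
    linear_combination -h
  · exfalso
    have := hge m₁ g1'
    have := hge m₂ g2'
    omega

/-- The constant of the sector of `φ`. -/
theorem term_phi (D : Core M p m K x σ H φ) {u : G} (huu : u * u = 1) (hu1 : u ≠ 1)
    (hux : u * x * u = x⁻¹) {z : Subgroup.center G} (hz : z ≠ 1) :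
    ∃ (k : ℕ) (s w : ℤ), 1 ≤ k ∧ |s| ≤ k + 1 ∧ (w = 1 ∨ w = -1) ∧
      (4 : ℤ) ∣ ((p : ℤ) - 2) - w ∧ (4 : ℤ) ∣ ((p : ℤ) * k + 1) - s ∧
      ∑ χ ∈ sector φ, term x u χ = ((1 / ((p : ℝ) - 2) + ((s : ℝ) ^ 2 / ((p : ℝ) * k + 1) -
        ((s : ℝ) + w) ^ 2 / ((p : ℝ) * k + p - 1)) : ℝ) : ℂ) := by
  classical
  obtain ⟨μ₁, μ₂, k, hne, hs₁, hs₂, hf₁, hf₂, hk, hv₁, hv₂, hd₁, hd₂, hoth, hrel⟩ :=
    D.exists_signed hz
  obtain ⟨w, hw, hw1, hw4⟩ := D.phi_u huu hux
  obtain ⟨s, hs, hsb, hs4⟩ := D.split μ₂ huu hux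
  have he := D.eig_zero_of_const μ₂ hv₂
  rw [hd₂] at he hs4
  have he' : (D.S.eigMult μ₂ 0 : ℤ) = k + 1 := by
    refine mul_left_cancel₀ (Int.natCast_ne_zero.2 hp.out.ne_zero) ?_
    rw [he]; ring
  rw [he'] at hsb
  have hureg : ¬ p ∣ orderOf u := by
    rw [orderOf_eq_prime (p := 2) (by rw [sq, huu]) hu1]
    intro h
    have := Nat.le_of_dvd two_pos h
    have := D.hp5
    omega
  refine ⟨k, s, w, hk, hsb, hw1, hw4, hs4, ?_⟩
  have hμ1u : (μ₁ : G → ℂ) u = ((s + w : ℤ) : ℂ) := by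
    rw [hrel u hureg, hw, hs]; push_cast; ring
  have hx1 : ∀ μ : IrrCharacter G, ∀ v : ℤ, (∀ j : ℕ, (j : ZMod p) ≠ 0 → (μ : G → ℂ) (x ^ j) = v) →
      (μ : G → ℂ) x = v := fun μ v h => by
    have h' := h 1 (by rw [Nat.cast_one]; exact one_ne_zero)
    rwa [pow_one] at h'
  have hsub : D.fam ∪ {μ₁, μ₂} ⊆ sector φ := by
    refine Finset.union_subset D.fam_subset ?_
    intro χ hχ
    rcases Finset.mem_insert.1 hχ with rfl | hχ
    · exact hs₁
    · rw [Finset.mem_singleton.1 hχ]; exact hs₂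
  rw [← Finset.sum_subset hsub (fun χ hχ hn => by
      simp only [Finset.mem_union, Finset.mem_insert, Finset.mem_singleton, not_or] at hn
      rw [term, hoth χ hχ hn.1 hn.2.1 hn.2.2]; ring),
    Finset.sum_union (Finset.disjoint_left.2 fun χ hχ hn => by
      rcases Finset.mem_insert.1 hn with rfl | hn
      · exact hf₁ hχ
      · rw [Finset.mem_singleton.1 hn] at hχ; exact hf₂ hχ), Finset.sum_pair hne,
    Finset.sum_congr rfl (g := fun χ : IrrCharacter G =>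
      ((w * w : ℤ) : ℂ) / ((p : ℂ) - 2) * (χ : G → ℂ) x) fun χ hχ => by
      rw [term, D.fam_reg hχ hureg,
        D.fam_reg hχ (g := 1) (by rw [orderOf_one]; exact hp.out.not_dvd_one), hw, map_intCast,
        D.phi_one, Nat.cast_sub (show 2 ≤ p by have := D.hp5; omega), Nat.cast_ofNat]
      push_cast
      ring,
    ← Finset.mul_sum, D.fam_sum_x, mul_one, term, term, hμ1u, hs, hx1 μ₁ _ hv₁, hx1 μ₂ _ hv₂,
    apply_one_eq_deg μ₁, apply_one_eq_deg μ₂, map_intCast, map_intCast]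
  have hww : (w * w : ℤ) = 1 := by rcases hw1 with h | h <;> rw [h] <;> rfl
  have e₁ : (charDegree (μ₁ : G → ℂ) : ℂ) = (p : ℂ) * k + p - 1 := by exact_mod_cast hd₁
  have e₂ : (charDegree (μ₂ : G → ℂ) : ℂ) = (p : ℂ) * k + 1 := by exact_mod_cast hd₂
  rw [hww, e₁, e₂]
  push_cast
  ring

theorem relIndex_two (D : Core M p m K x σ H φ) :
    H.relIndex (Subgroup.normalizer ((Subgroup.zpowers x : Subgroup G) : Set G)) = 2 := by
  classical
  obtain ⟨u, huu, hu1, hux⟩ := D.exists_inverting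
  have hui : u⁻¹ = u := inv_eq_of_mul_eq_one_right huu
  rw [relIndex_eq_ncard_image (fun g => g * x * g⁻¹) fun a _ b _ => ?_]
  · have hxne : x ≠ x⁻¹ := fun h => by
      have h1 : orderOf x ∣ 2 := orderOf_dvd_of_pow_eq_one (by
        rw [sq]; nth_rewrite 2 [h]; rw [mul_inv_cancel])
      rw [D.S.hx] at h1
      have := Nat.le_of_dvd two_pos h1
      have := D.hp5
      omega
    have himg : (fun g => g * x * g⁻¹) ''
        (Subgroup.normalizer ((Subgroup.zpowers x : Subgroup G) : Set G) : Set G) = {x, x⁻¹} := by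
      ext y
      simp only [Set.mem_image, SetLike.mem_coe, Set.mem_insert_iff, Set.mem_singleton_iff]
      constructor
      · rintro ⟨g, hg, rfl⟩
        obtain ⟨r, -, hr⟩ := D.S.exists_conj_pow ((Subgroup.inv_mem_iff _).2 hg)
        rw [inv_inv] at hr
        have h1 : IsConj (x ^ 1) (x ^ K ^ r) := isConj_iff.2 ⟨g, by rw [pow_one, hr]⟩
        have hr0 : ((K ^ r : ℕ) : ZMod p) ≠ 0 := by
          rw [Nat.cast_pow]; exact pow_ne_zero _ D.S.K_ne_zero
        rw [hr]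
        rcases (D.conj_pow_iff hr0).1 h1 with e | e
        · left; rw [← D.S.pow_eq_pow_iff'.2 e, pow_one]
        · right
          refine eq_inv_of_mul_eq_one_left ?_
          rw [← pow_succ, show x ^ (K ^ r + 1) = x ^ 0 from D.S.pow_eq_pow_iff'.2 (by
            rw [Nat.cast_add, e, add_neg_cancel, Nat.cast_zero]), pow_zero]
      · rintro (rfl | rfl)
        · exact ⟨1, one_mem _, by group⟩
        · refine ⟨u, D.S.mem_normalizer_of_conj (r := (p - 1) / 2) ?_, by rw [hui]; exact hux⟩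
          rw [hui, hux]
          refine inv_eq_of_mul_eq_one_right ?_
          rw [← pow_succ', show x ^ (K ^ ((p - 1) / 2) + 1) = x ^ 0 from D.S.pow_eq_pow_iff'.2 (by
            rw [Nat.cast_add, Nat.cast_pow, D.K_half, Nat.cast_one, neg_add_cancel, Nat.cast_zero]),
            pow_zero]
    rw [himg, Set.ncard_pair hxne]
  · rw [D.S.hH, Subgroup.mem_centralizer_singleton_iff]
    constructor
    · intro h
      have h' : a⁻¹ * (a * x * a⁻¹) * b = a⁻¹ * (b * x * b⁻¹) * b := congrArg (a⁻¹ * · * b) h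
      simpa [mul_assoc] using h'.symm
    · intro h
      have h' : a * (a⁻¹ * b * x) * b⁻¹ = a * (x * (a⁻¹ * b)) * b⁻¹ := congrArg (a * · * b⁻¹) h
      simpa [mul_assoc] using h'.symm

/-- The constant of the principal sector. -/
theorem term_one (D : Core M p m K x σ H φ) (P : PData p x) {u : G} (huu : u * u = 1) (hu1 : u ≠ 1)
    (hux : u * x * u = x⁻¹) :
    ∃ (k : ℕ) (s e : ℤ), 1 ≤ k ∧ (e = 1 ∨ e = -1) ∧ |s| ≤ k + e ∧
      (4 : ℤ) ∣ ((p : ℤ) * k + e) - s ∧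
      ∑ χ ∈ sector (oneChar G), term x u χ = ((1 + (e : ℝ) * ((s : ℝ) ^ 2 / ((p : ℝ) * k + e) -
        ((s : ℝ) + e) ^ 2 / ((p : ℝ) * k + e + e)) : ℝ) : ℂ) := by
  classical
  have hp5 := D.hp5
  have he2 : P.e = 2 := by rw [← P.relIndex, ← D.S.hH]; exact D.relIndex_two
  obtain ⟨μ, hμ⟩ := Finset.card_eq_one.1 (by
    rw [Finset.card_erase_of_mem P.one_mem, P.card_X, he2] :
    (P.X.erase (oneChar G)).card = 1)
  have hμm : μ ∈ P.X.erase (oneChar G) := by rw [hμ]; exact Finset.mem_singleton_self μ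
  have hμX := Finset.mem_of_mem_erase hμm
  have hμ1 := Finset.ne_of_mem_erase hμm
  have hXeq : P.X = {oneChar G, μ} := by rw [← Finset.insert_erase P.one_mem, hμ]
  set e := P.ε μ with hedef
  have he : e = 1 ∨ e = -1 := P.sign μ hμX
  have hone : ((1 : ℕ) : ZMod p) ≠ 0 := by rw [Nat.cast_one]; exact one_ne_zero
  have hreg1 : ¬ p ∣ orderOf (1 : G) := by rw [orderOf_one]; exact hp.out.not_dvd_one
  have hy : ∀ {j : ℕ}, (j : ZMod p) ≠ 0 → x ^ j ∈ Subgroup.zpowers x ∧ x ^ j ≠ 1 := fun {j} hj =>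
    ⟨Subgroup.pow_mem _ (Subgroup.mem_zpowers x) _, fun h => hp.out.ne_one (by
      rw [← D.orderOf_pow_eq hj, h, orderOf_one])⟩
  have hXval : ∀ χ ∈ P.X, ∀ j : ℕ, (j : ZMod p) ≠ 0 → (χ : G → ℂ) (x ^ j) = (P.ε χ : ℂ) := by
    intro χ hχ j hj
    have h := P.X_value χ hχ _ (hy hj).1 (hy hj).2 1 (one_mem _) hreg1
    rwa [mul_one] at h
  have hxv : ∀ χ ∈ P.X, (χ : G → ℂ) x = (P.ε χ : ℂ) := fun χ hχ => by
    have h := hXval χ hχ 1 hone
    rwa [pow_one] at h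
  -- the centre is in the kernels
  have hcen : ∀ z : Subgroup.center G, (z : G) ∈ Subgroup.centralizer ({x} : Set G) := fun z =>
    D.S.hH ▸ D.center_le z.2
  have hx1 := hy hone
  rw [pow_one] at hx1
  have hkill : ∀ (χ : IrrCharacter G), (χ : G → ℂ) x ≠ 0 →
      (∀ z : Subgroup.center G, (χ : G → ℂ) (x * z) = (χ : G → ℂ) x) →
      lam χ = lam (oneChar G) := fun χ hne h => MonoidHom.ext fun z => by
    rw [lam_one]
    have h1 := apply_mul_center χ x z
    rw [h z] at h1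
    exact (mul_eq_right₀ hne).1 h1.symm
  have hsumW : ∑ θ ∈ P.Y, (θ : G → ℂ) x = (P.W : ℂ) := P.Y_sum x hx1.1 hx1.2
  obtain ⟨θ₀, hθ₀, hθ₀x⟩ : ∃ θ ∈ P.Y, (θ : G → ℂ) x ≠ 0 := by
    by_contra hno
    push Not at hno
    rw [Finset.sum_eq_zero hno] at hsumW
    rcases P.sign_W with h | h <;> rw [h] at hsumW <;> simp at hsumW
  have hYlam : ∀ θ ∈ P.Y, lam θ = lam (oneChar G) := fun θ hθ => by
    rw [← hkill θ₀ hθ₀x fun z => P.Y_value θ₀ hθ₀ x hx1.1 hx1.2 z (hcen z) (D.not_dvd_center z.2)]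
    refine MonoidHom.ext fun z => ?_
    show (θ : G → ℂ) (z : G) / _ = (θ₀ : G → ℂ) (z : G) / _
    rw [P.Y_reg θ hθ θ₀ hθ₀ _ (D.not_dvd_center z.2), P.Y_reg θ hθ θ₀ hθ₀ 1 hreg1]
  have hXlam : ∀ χ ∈ P.X, lam χ = lam (oneChar G) := fun χ hχ => by
    refine hkill χ ?_ fun z => ?_
    · rw [hxv χ hχ]
      rcases P.sign χ hχ with h | h <;> rw [h] <;> simp
    · rw [hxv χ hχ]
      exact P.X_value χ hχ x hx1.1 hx1.2 z (hcen z) (D.not_dvd_center z.2)
  -- degrees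
  set d := charDegree (μ : G → ℂ) with hd
  set d' := charDegree (θ₀ : G → ℂ) with hd'
  have hd2 : 2 ≤ d := TwoPrimeOrder.two_le_deg D.hperf μ hμ1
  have hrel : ∀ g : G, ¬ p ∣ orderOf g →
      1 + (e : ℂ) * (μ : G → ℂ) g + (P.W : ℂ) * (θ₀ : G → ℂ) g = 0 := fun g hg => by
    have h := P.relation g hg θ₀ hθ₀
    rwa [hXeq, Finset.sum_pair (Ne.symm hμ1), P.one_sign, Int.cast_one, one_mul,
      show ((oneChar G : IrrCharacter G) : G → ℂ) g = 1 by simp [coe_oneChar]] at h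
  have h1 := hrel 1 hreg1
  rw [apply_one_eq_deg, apply_one_eq_deg] at h1
  have h1' : (1 : ℤ) + e * d + P.W * d' = 0 := by exact_mod_cast h1
  obtain ⟨k, hk⟩ : ∃ k : ℤ, (d : ℤ) = p * k + e := by
    obtain ⟨c, hc⟩ := Int.modEq_iff_dvd.1 (P.X_deg μ hμX).symm
    exact ⟨c, by rw [← hd, ← hedef] at hc; omega⟩
  have hk1 : 1 ≤ k := by
    by_contra hlt
    have h3 : (p : ℤ) * k ≤ 0 := mul_nonpos_of_nonneg_of_nonpos (Int.natCast_nonneg p) (by omega)
    omega
  lift k to ℕ using (by omega : (0 : ℤ) ≤ k) with k'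
  have hWe : P.W = -e ∧ (d' : ℤ) = d + e := by
    rcases P.sign_W with h | h <;> rw [h] at h1' ⊢ <;> rcases he with g | g <;> rw [g] at h1' ⊢ <;>
      omega
  obtain ⟨hW, hd'e⟩ := hWe
  -- the norms of the exceptional characters
  have hnorm : ∀ θ ∈ P.Y, 2 * (p : ℝ) - 4 ≤
      ∑ j ∈ Finset.univ.erase (0 : ZMod p), Complex.normSq ((θ : G → ℂ) (x ^ j.val)) := by
    intro θ hθ
    set n := D.S.eigMult θ with hn
    set dθ := charDegree (θ : G → ℂ) with hdθ
    have hS : (p : ℤ) * n 0 = dθ + 2 * P.W := by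
      have h2 := D.sum_range_pow θ
      rw [Finset.range_eq_Ico, Finset.sum_eq_sum_Ico_succ_bot hp.out.pos, pow_zero, zero_add,
        apply_one_eq_deg, P.Y_sumP θ hθ, he2] at h2
      apply Int.cast_injective (α := ℂ)
      push_cast
      rw [← h2]; ring
    have hdeg : ∑ i : ZMod p, (n i : ℤ) = dθ := by
      rw [← Nat.cast_sum]; exact_mod_cast (D.S.degree_eig θ).symm
    have hlin : ∑ i : ZMod p, ((n i : ℤ) - n 0) = -(2 * P.W) := by
      rw [Finset.sum_sub_distrib, hdeg, Finset.sum_const, Finset.card_univ, ZMod.card, nsmul_eq_mul]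
      linarith
    have hQ : 2 ≤ ∑ i : ZMod p, ((n i : ℤ) - n 0) ^ 2 := by
      have g1 : ∑ i : ZMod p, ((n i : ℤ) - n 0) ≤ ∑ i : ZMod p, ((n i : ℤ) - n 0) ^ 2 :=
        Finset.sum_le_sum fun i _ => Int.le_self_sq _
      have g2 : ∑ i : ZMod p, -((n i : ℤ) - n 0) ≤ ∑ i : ZMod p, ((n i : ℤ) - n 0) ^ 2 :=
        Finset.sum_le_sum fun i _ => (Int.le_self_sq _).trans (neg_sq _).le
      rw [Finset.sum_neg_distrib, hlin] at g2
      rw [hlin] at g1
      rcases P.sign_W with h | h <;> rw [h] at g1 g2 <;> linarith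
    have hval := D.S.sum_values_mul θ 1
    simp only [mul_one, Nat.cast_one, one_mul, Finset.sum_ite_eq, Finset.mem_univ, if_true,
      Complex.mul_conj] at hval
    rw [← Finset.add_sum_erase _ _ (Finset.mem_univ (0 : ZMod p)), ZMod.val_zero, pow_zero,
      apply_one_eq_deg, Complex.normSq_natCast, ← Complex.ofReal_sum, ← Complex.ofReal_add] at hval
    have hval' : (dθ : ℝ) * dθ + ∑ j ∈ Finset.univ.erase (0 : ZMod p),
        Complex.normSq ((θ : G → ℂ) (x ^ j.val)) = (p : ℝ) * ((∑ i : ZMod p, n i * n i : ℕ) : ℝ) := by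
      exact_mod_cast hval
    have hid : (p : ℤ) * ∑ i : ZMod p, ((n i : ℤ) - n 0) ^ 2 - 4 =
        (p : ℤ) * ((∑ i : ZMod p, n i * n i : ℕ) : ℤ) - (dθ : ℤ) * dθ := by
      have hW2 : P.W * P.W = 1 := by rcases P.sign_W with h | h <;> rw [h] <;> rfl
      have hexp : ∑ i : ZMod p, ((n i : ℤ) - n 0) ^ 2 =
          ((∑ i : ZMod p, n i * n i : ℕ) : ℤ) - 2 * (n 0 : ℤ) * dθ + (p : ℤ) * (n 0 : ℤ) ^ 2 := by
        rw [Finset.sum_congr rfl (g := fun i => ((n i * n i : ℕ) : ℤ) - 2 * (n 0 : ℤ) * (n i : ℤ) +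
          (n 0 : ℤ) ^ 2) fun i _ => by push_cast; ring, Finset.sum_add_distrib,
          Finset.sum_sub_distrib, ← Finset.mul_sum, hdeg, ← Nat.cast_sum, Finset.sum_const,
          Finset.card_univ, ZMod.card, nsmul_eq_mul]
      rw [hexp]
      linear_combination ((p : ℤ) * n 0 - dθ + 2 * P.W) * hS + 4 * hW2
    have hidR : (p : ℝ) * ((∑ i : ZMod p, n i * n i : ℕ) : ℝ) - (dθ : ℝ) * dθ =
        (p : ℝ) * ((∑ i : ZMod p, ((n i : ℤ) - n 0) ^ 2 : ℤ) : ℝ) - 4 := by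
      exact_mod_cast hid.symm
    have hQR : (2 : ℝ) ≤ ((∑ i : ZMod p, ((n i : ℤ) - n 0) ^ 2 : ℤ) : ℝ) := by exact_mod_cast hQ
    nlinarith
  -- the other characters vanish at `x`
  have hXY : P.X ∪ P.Y ⊆ sector (oneChar G) := fun χ hχ => mem_sector.2
    ((Finset.mem_union.1 hχ).elim (hXlam χ) (hYlam χ))
  have hvan : ∀ χ ∈ sector (oneChar G), χ ∉ P.X ∪ P.Y → (χ : G → ℂ) x = 0 := by
    intro χ hχ hχn
    set F : IrrCharacter G → ℝ := fun ψ =>
      ∑ j ∈ Finset.univ.erase (0 : ZMod p), Complex.normSq ((ψ : G → ℂ) (x ^ j.val)) with hF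
    have hFn : ∀ ψ, 0 ≤ F ψ := fun ψ => Finset.sum_nonneg fun j _ => Complex.normSq_nonneg _
    have htot : ∑ ψ ∈ sector (oneChar G), F ψ = ((p : ℝ) - 1) * p := by
      simp only [hF]
      rw [Finset.sum_comm, Finset.sum_congr rfl (g := fun _ => (p : ℝ)) fun j hj => by
        have hj0 := zmod_val_ne j (Finset.mem_erase.1 hj).1
        have h := D.gram (oneChar G) hj0 hj0
        rw [if_pos (Or.inl rfl)] at h
        simp only [Complex.mul_conj] at h
        exact_mod_cast h]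
      rw [Finset.sum_const, Finset.card_erase_of_mem (Finset.mem_univ _), Finset.card_univ,
        ZMod.card, nsmul_eq_mul, Nat.cast_sub hp.out.one_le, Nat.cast_one]
    have hFX : ∑ ψ ∈ P.X, F ψ = 2 * ((p : ℝ) - 1) := by
      rw [Finset.sum_congr rfl (g := fun _ => (p : ℝ) - 1) fun ψ hψ => ?_, Finset.sum_const,
        P.card_X, he2, nsmul_eq_mul, Nat.cast_ofNat]
      simp only [hF]
      rw [Finset.sum_congr rfl (g := fun _ => (1 : ℝ)) fun j hj => by
        rw [hXval ψ hψ _ (zmod_val_ne j (Finset.mem_erase.1 hj).1)]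
        rcases P.sign ψ hψ with h | h <;> simp [h], Finset.sum_const,
        Finset.card_erase_of_mem (Finset.mem_univ _), Finset.card_univ, ZMod.card, nsmul_eq_mul,
        mul_one, Nat.cast_sub hp.out.one_le, Nat.cast_one]
    have hFY := Finset.card_nsmul_le_sum P.Y F _ hnorm
    rw [P.card_Y, nsmul_eq_mul] at hFY
    have ht : (2 : ℝ) * P.t = (p : ℝ) - 1 := by
      have h := P.mul_et
      rw [he2] at h
      have : ((2 * P.t : ℕ) : ℝ) = ((p - 1 : ℕ) : ℝ) := by rw [h]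
      rw [Nat.cast_mul, Nat.cast_ofNat, Nat.cast_sub hp.out.one_le, Nat.cast_one] at this
      exact this
    rw [← Finset.sum_sdiff hXY, Finset.sum_union P.disj, hFX] at htot
    have h0 : ∑ ψ ∈ sector (oneChar G) \ (P.X ∪ P.Y), F ψ = 0 :=
      le_antisymm (by nlinarith) (Finset.sum_nonneg fun ψ _ => hFn ψ)
    have hχ0 : F χ = 0 := (Finset.sum_eq_zero_iff_of_nonneg fun ψ _ => hFn ψ).1 h0 χ
      (Finset.mem_sdiff.2 ⟨hχ, hχn⟩)
    have := (Finset.sum_eq_zero_iff_of_nonneg fun j _ => Complex.normSq_nonneg _).1 hχ0 (1 : ZMod p)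
      (Finset.mem_erase.2 ⟨one_ne_zero, Finset.mem_univ _⟩)
    rwa [Complex.normSq_eq_zero, ZMod.val_one, pow_one] at this
  -- the values at `u`
  have hureg : ¬ p ∣ orderOf u := by
    rw [orderOf_eq_prime (p := 2) (by rw [sq, huu]) hu1]
    intro h
    have := Nat.le_of_dvd two_pos h
    omega
  obtain ⟨s, hs, hsb, hs4⟩ := D.split μ huu hux
  have heig := D.eig_zero_of_const μ (hXval μ hμX)
  rw [← hd, ← hedef, hk] at heig
  rw [← hd, hk] at hs4
  have heig' : (D.S.eigMult μ 0 : ℤ) = k' + e := by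
    refine mul_left_cancel₀ (Int.natCast_ne_zero.2 hp.out.ne_zero) ?_
    rw [heig]; ring
  rw [heig'] at hsb
  have hee : (e : ℂ) * e = 1 := by rcases he with g | g <;> rw [g] <;> simp
  have hθu : (θ₀ : G → ℂ) u = ((s + e : ℤ) : ℂ) := by
    have h := hrel u hureg
    rw [hW, hs] at h
    push_cast at h ⊢
    linear_combination (-(e : ℂ)) * h - ((θ₀ : G → ℂ) u - s) * hee
  refine ⟨k', s, e, by exact_mod_cast hk1, he, hsb, hs4, ?_⟩
  rw [← Finset.sum_subset hXY (fun χ hχ hn => by rw [term, hvan χ hχ hn]; ring),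
    Finset.sum_union P.disj, hXeq, Finset.sum_pair (Ne.symm hμ1),
    Finset.sum_congr rfl (s₁ := P.Y) (g := fun θ : IrrCharacter G =>
      ((s + e : ℤ) : ℂ) * ((s + e : ℤ) : ℂ) / (d' : ℂ) * (θ : G → ℂ) x) fun θ hθ => by
      rw [term, P.Y_reg θ hθ θ₀ hθ₀ u hureg, P.Y_reg θ hθ θ₀ hθ₀ 1 hreg1, hθu, map_intCast,
        apply_one_eq_deg]
      ring,
    ← Finset.mul_sum, hsumW, hW, term, term, hs, hxv μ hμX, ← hedef, map_intCast, apply_one_eq_deg μ,
    ← hd]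
  have e₁ : (d : ℂ) = (p : ℂ) * k' + e := by exact_mod_cast hk
  have e₂ : (d' : ℂ) = (p : ℂ) * k' + e + e := by
    rw [← e₁]; exact_mod_cast hd'e
  rw [e₁, e₂]
  simp only [coe_oneChar, map_one, mul_one, div_one]
  push_cast
  ring

/-- The centre is trivial. -/
theorem center_eq_bot (D : Core M p m K x σ H φ) (P : PData p x) : Subgroup.center G = ⊥ := by
  classical
  rw [Subgroup.eq_bot_iff_forall]
  intro z hz
  by_contra hne
  have hz1 : (⟨z, hz⟩ : Subgroup.center G) ≠ 1 := fun h => hne (congrArg Subtype.val h)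
  obtain ⟨u, huu, hu1, hux⟩ := D.exists_inverting
  obtain ⟨k, s, w, hk, hs, hw, hw4, hs4, hA⟩ := D.term_phi huu hu1 hux hz1
  obtain ⟨k', s', e, hk', he, hs', hs4', hB⟩ := D.term_one P huu hu1 hux
  have heq : ∑ χ ∈ sector φ, term x u χ = ∑ χ ∈ sector (oneChar G), term x u χ :=
    mul_left_cancel₀ (Nat.cast_ne_zero.2 Nat.card_pos.ne')
      ((D.sector_term huu φ).trans (D.sector_term huu (oneChar G)).symm)
  rw [hA, hB, Complex.ofReal_inj] at heq
  have hp5 := D.hp5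
  have hkR : (1 : ℝ) ≤ k := by exact_mod_cast hk
  have hk'R : (1 : ℝ) ≤ k' := by exact_mod_cast hk'
  have hsR : |(s : ℝ)| ≤ (k : ℝ) + 1 := by rw [← Int.cast_abs]; exact_mod_cast hs
  have hwR : (w : ℝ) ^ 2 = 1 := by rcases hw with g | g <;> rw [g] <;> simp
  obtain ⟨hsl, hsu⟩ := abs_le.1 hs
  obtain ⟨hs'l, hs'u⟩ := abs_le.1 hs'
  by_cases hp11 : 11 ≤ p
  · have hpR : (11 : ℝ) ≤ p := by exact_mod_cast hp11
    have hup := upper_large hpR hkR hsR hwR
    rcases he with rfl | rfl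
    · have hs'R : |(s' : ℝ)| ≤ (k' : ℝ) + 1 := by rw [← Int.cast_abs]; exact_mod_cast hs'
      have hlo := lower_pos (p := (p : ℝ)) (by linarith) hk'R hs'R
      have := gap_pos hpR
      push_cast at heq
      linarith
    · have hs'R : |(s' : ℝ)| ≤ (k' : ℝ) - 1 := by
        rw [← Int.cast_abs]
        have : ((|s'| : ℤ) : ℝ) ≤ (((k' : ℤ) + -1 : ℤ) : ℝ) := by exact_mod_cast hs'
        push_cast at this ⊢
        linarith
      have hlo := lower_neg (p := (p : ℝ)) (by linarith) hk'R hs'R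
      have := gap_neg hpR
      push_cast at heq
      linarith
  · have hp7 : p = 7 := by
      have h : p = 6 ∨ p = 7 ∨ p = 8 ∨ p = 9 ∨ p = 10 := by omega
      rcases h with h | h | h | h | h
      · exfalso; have := hp.out; rw [h] at this; norm_num at this
      · exact h
      all_goals (exfalso; have := hp.out; rw [h] at this; norm_num at this)
    have hpR : (p : ℝ) = 7 := by exact_mod_cast hp7
    have hpZ : (p : ℤ) = 7 := by exact_mod_cast hp7
    rw [hpZ] at hw4 hs4 hs4'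
    have hw1 : w = 1 := by omega
    have hlow : -((k : ℤ) - 1) ≤ s := by omega
    have hup := upper_seven hkR (s := (s : ℝ)) (by exact_mod_cast hlow) (by exact_mod_cast hsu)
    rw [hw1, hpR] at heq
    push_cast at heq
    rcases he with rfl | rfl
    · have hs'R : |(s' : ℝ)| ≤ (k' : ℝ) + 1 := by rw [← Int.cast_abs]; exact_mod_cast hs'
      have hlo := lower_seven hk'R hs'R (fun h => by
          have h' : k' = 1 := by exact_mod_cast h
          have : s' = 0 := by omega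
          exact_mod_cast this) (fun h => by
          have h' : k' = 2 := by exact_mod_cast h
          have : s' = 3 ∨ s' ≤ 0 := by omega
          exact_mod_cast this) (by
          have : k' = 1 ∨ k' = 2 ∨ 3 ≤ k' := by omega
          exact_mod_cast this)
      push_cast at heq
      ring_nf at heq hlo hup
      linarith
    · have hs'R : |(s' : ℝ)| ≤ (k' : ℝ) - 1 := by
        rw [← Int.cast_abs]
        have : ((|s'| : ℤ) : ℝ) ≤ (((k' : ℤ) + -1 : ℤ) : ℝ) := by exact_mod_cast hs'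
        push_cast at this ⊢
        linarith
      have hlo := lower_neg (p := (7 : ℝ)) le_rfl hk'R hs'R
      push_cast at heq
      ring_nf at heq hlo hup
      linarith

end Core

end Cfsg.Agent.Blocks.DegreePMinusTwo
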