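import Cfsg.Agent.Blocks.HalfDegree.Local

/-!
When `p` divides the order once: the local structure of an irreducible character of degree at most
`p - 2` which is not scalar at an element of order `p`.
-/

set_option autoImplicit false
set_option linter.unusedSectionVars false
set_option linter.style.haveILetI false

namespace Cfsg.Agent.Blocks.DegreePMinusTwo

open Cfsg Cfsg.Agent Cfsg.Agent.Blocks Cfsg.Agent.BlockChar Cfsg.Agent.Chars2.Cyc Function
open Cfsg.Agent.Chars2.Cyc.Once (blockMult blockDeg)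
open scoped ComplexConjugate

universe u

variable {G : Type u} [Group G] [Fintype G] {H : Subgroup G} [Fintype H] {p m K : ℕ}
  [hp : Fact p.Prime] {M : Ideal AlgInt} [M.IsMaximal] {x : G} {σ : ℂ ≃+* ℂ}
  (S : Once M p m K x σ H) {φ : IrrCharacter G}
include S

/-- With one exponent only the element acts by a scalar. -/
theorem norm_eq_of_single (e : ZMod p) (h : ∀ i, i ≠ e → S.eigMult φ i = 0) :
    ‖(φ : G → ℂ) x‖ = charDegree (φ : G → ℂ) := by
  have h1 := S.value_eig φ 1
  have h2 := S.degree_eig φ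
  rw [Finset.sum_eq_single e (fun i _ hi => h i hi) (fun h => absurd (Finset.mem_univ _) h)] at h2
  rw [pow_one, Finset.sum_eq_single e (fun i _ hi => by rw [h i hi, Nat.cast_zero, zero_mul])
    (fun h => absurd (Finset.mem_univ _) h)] at h1
  rw [h1, norm_mul, Complex.norm_natCast, h2]
  rw [Complex.norm_eq_one_of_pow_eq_one (n := p) (by
    rw [← AddChar.map_nsmul_eq_pow, nsmul_eq_mul, ZMod.natCast_self, zero_mul,
      AddChar.map_zero_eq_one]) hp.out.ne_zero, mul_one]

/-- Values invariant under a power map: so are the multiplicities. -/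
theorem eig_invariant {k : ℕ} (hk : (k : ZMod p) ≠ 0)
    (h : ∀ j : ℕ, (φ : G → ℂ) (x ^ (j * k)) = (φ : G → ℂ) (x ^ j)) (i : ZMod p) :
    S.eigMult φ ((k : ZMod p) * i) = S.eigMult φ i := by
  classical
  set μ : ZMod p → ℕ := S.eigMult φ with hμ
  have h1 : ∀ a : ℕ, (∑ i : ZMod p, ∑ i' : ZMod p,
      if (a : ZMod p) * i = i' then μ i * μ i' else 0) = ∑ i : ZMod p, μ i * μ ((a : ZMod p) * i) :=
    fun a => Finset.sum_congr rfl fun i _ => by rw [Finset.sum_ite_eq, if_pos (Finset.mem_univ _)]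
  have hK := S.sum_values_mul φ k
  have hone := S.sum_values_mul φ 1
  simp only [h] at hK
  simp only [mul_one] at hone
  rw [hK] at hone
  have h2 : ∑ i : ZMod p, μ i * μ ((k : ZMod p) * i) = ∑ i : ZMod p, μ i * μ i := by
    have h3 := Nat.cast_injective (R := ℂ)
      (mul_left_cancel₀ (Nat.cast_ne_zero.2 hp.out.ne_zero) hone)
    rw [← hμ, h1, h1] at h3
    simpa using h3
  have h4 : ∑ i : ZMod p, μ ((k : ZMod p) * i) * μ ((k : ZMod p) * i) = ∑ i : ZMod p, μ i * μ i :=
    Fintype.sum_equiv (Equiv.mulLeft₀ _ hk) _ _ fun i => rfl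
  have h5 : ∑ i : ZMod p, ((μ ((k : ZMod p) * i) : ℤ) - μ i) ^ 2 = 0 := by
    have e1 : ∀ i : ZMod p, ((μ ((k : ZMod p) * i) : ℤ) - μ i) ^ 2 =
        ((μ ((k : ZMod p) * i) * μ ((k : ZMod p) * i) : ℕ) : ℤ) + ((μ i * μ i : ℕ) : ℤ) -
          2 * ((μ i * μ ((k : ZMod p) * i) : ℕ) : ℤ) := fun i => by push_cast; ring
    simp only [e1, Finset.sum_sub_distrib, Finset.sum_add_distrib, ← Finset.mul_sum,
      ← Nat.cast_sum, h2, h4]
    ring
  have := (Finset.sum_eq_zero_iff_of_nonneg fun i _ => sq_nonneg _).1 h5 i (Finset.mem_univ i)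
  rw [sq_eq_zero_iff, sub_eq_zero] at this
  exact_mod_cast this

theorem eig_invariant_of_conj {k : ℕ} (hk : (k : ZMod p) ≠ 0) (hc : IsConj (x ^ k) x) (i : ZMod p) :
    S.eigMult φ ((k : ZMod p) * i) = S.eigMult φ i := by
  refine eig_invariant S hk (fun j => ?_) i
  obtain ⟨c, hc⟩ := isConj_iff.1 hc
  rw [mul_comm, pow_mul, ← Chars.isClassFunction_irr φ ((x ^ k) ^ j) c, ← conj_pow, hc]

/-- The block data of a character of degree at most `p - 2` not scalar at `x`. -/
theorem small_shape (hn : charDegree (φ : G → ℂ) + 2 ≤ p)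
    (hns : ‖(φ : G → ℂ) x‖ ≠ charDegree (φ : G → ℂ)) :
    ∃ (B : Set (IrrCharacter G)) (b₀ : Set (IrrCharacter H)) (c : ℕ)
      (O : OneShape M p x σ B b₀ c), IsPBlock M B ∧ 0 < blockDefect p B ∧
      IsInducedBlock M H b₀ B ∧ φ ∈ O.Y ∧
      (∀ b, IsPBlock M b → ¬ IsInducedBlock M H b B → blockMult φ b = 0) ∧
      ((∀ b, IsInducedBlock M H b B → S.blockFix φ b = 0 ∧ blockMult φ b = (p - 1) / O.t) ∨
       ((∀ b, IsInducedBlock M H b B → S.blockFix φ b = 1 ∧ blockMult φ b = p - (p - 1) / O.t) ∧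
        2 ≤ O.t)) := by
  classical
  set n := charDegree (φ : G → ℂ) with hn'
  set B := blockOf M (φ : G → ℂ) with hB'
  have hB : IsPBlock M B := isPBlock_blockOf φ
  have hφB : φ ∈ B := mem_blockOf_self φ
  have hd : 0 < blockDefect p B := by
    have hle : sInf ((fun χ : IrrCharacter G => (charDegree (χ : G → ℂ)).factorization p) '' B) ≤
        n.factorization p := Nat.sInf_le ⟨φ, hφB, rfl⟩
    have hz : n.factorization p = 0 := Nat.factorization_eq_zero_of_not_dvd fun h => by
      have := Nat.le_of_dvd (Blocks.charDegree_eq φ.2).2 h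
      omega
    rw [blockDefect, S.vG]
    omega
  obtain ⟨b₀, hind⟩ := S.exists_induced hB hd
  obtain ⟨θ₀, hθ₀⟩ := block_nonempty hind.1
  obtain ⟨O⟩ := S.exists_shape hd hind hθ₀
  have hle : ∀ b, IsPBlock M b → blockMult φ b ≤ n := fun b hb => by
    rw [hn', S.degree_blocks]
    refine le_trans ?_ (Finset.single_le_sum (f := fun b => blockDeg b * blockMult φ b)
      (fun _ _ => Nat.zero_le _) (mem_blockFinset.2 hb))
    exact Nat.le_mul_of_pos_left _ (S.blockDeg_pos hb)
  have hni : ∀ b, IsPBlock M b → ¬ IsInducedBlock M H b B → blockMult φ b = 0 := fun b hb hbni => by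
    have h1 := S.fix_noninducing hB hφB hb hbni
    have h2 := hle b hb
    rcases Nat.eq_zero_or_pos (S.blockFix φ b) with e | e
    · rw [← h1, e, mul_zero]
    · have := Nat.le_mul_of_pos_right p e
      omega
  -- equal fixed part and block part in every inducing block means scalar
  have htriv : (∀ b, IsInducedBlock M H b B → S.blockFix φ b = blockMult φ b) → False := by
    intro hall
    refine hns (norm_eq_of_single S 0 fun i hi => ?_)
    have h1 : S.eigMult φ 0 = n := by
      rw [hn', S.degree_blocks, S.eig_zero_blocks]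
      refine Finset.sum_congr rfl fun b hb => ?_
      have hb' := mem_blockFinset.1 hb
      by_cases hbi : IsInducedBlock M H b B
      · rw [hall b hbi]
      · have := S.blockFix_le φ b
        rw [hni b hb' hbi] at this
        rw [hni b hb' hbi, Nat.le_zero.1 this]
    have h2 := S.degree_eig φ
    rw [← hn', ← Finset.add_sum_erase _ _ (Finset.mem_univ (0 : ZMod p)), h1] at h2
    exact (Finset.sum_eq_zero_iff.1 (by omega : ∑ i ∈ Finset.univ.erase (0 : ZMod p),
      S.eigMult φ i = 0)) i (Finset.mem_erase.2 ⟨hi, Finset.mem_univ i⟩)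
  have hfix01 : ∀ b, IsPBlock M b → ∀ w : ℤ,
      ((p * S.blockFix φ b : ℕ) : ℤ) = (blockMult φ b : ℤ) + w → w ≤ (p : ℤ) - 1 →
        S.blockFix φ b ≤ 1 := fun b hb w h1 hw => by
    by_contra hlt
    have h4 : p * 2 ≤ p * S.blockFix φ b := Nat.mul_le_mul_left p (by omega)
    have h2 := hle b hb
    omega
  have hp1 : 2 ≤ p - 1 := by have : 0 < n := (Blocks.charDegree_eq φ.2).2; omega
  have hφY : φ ∈ O.Y := by
    by_contra hφY
    refine htriv fun b hb => ?_
    have h1 := S.fix_inducing_X hind O hb hφB hφY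
    have h2 := hle b hb.1
    rcases O.sign φ hφB with e | e <;> rw [e] at h1
    · have h3 := hfix01 b hb.1 _ h1 (by omega)
      rcases Nat.eq_zero_or_pos (S.blockFix φ b) with e0 | e0
      · rw [e0, mul_zero] at h1; omega
      · have e1 : S.blockFix φ b = 1 := by omega
        rw [e1, mul_one] at h1
        omega
    · omega
  set h := (p - 1) / O.t with hh
  have hht : h * O.t = p - 1 := Nat.div_mul_cancel O.t_dvd
  have hpos : 0 < h := by
    rcases Nat.eq_zero_or_pos h with e | e
    · rw [e, zero_mul] at hht; omega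
    · exact e
  have hhle : h ≤ p - 1 := hht ▸ Nat.le_mul_of_pos_right h O.t_pos
  refine ⟨B, b₀, _, O, hB, hd, hind, hφY, hni, ?_⟩
  rcases O.sign φ hφB with e | e
  · right
    have hin : ∀ b, IsInducedBlock M H b B → S.blockFix φ b = 1 ∧ blockMult φ b = p - h := by
      intro b hb
      have h1 := S.fix_inducing_Y hind O hb hφY
      have h2 := hle b hb.1
      rw [← hh, e] at h1
      have h3 := hfix01 b hb.1 _ h1 (by omega)
      rcases Nat.eq_zero_or_pos (S.blockFix φ b) with e0 | e0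
      · rw [e0, mul_zero] at h1; omega
      · have e1 : S.blockFix φ b = 1 := by omega
        rw [e1, mul_one] at h1
        exact ⟨e1, by omega⟩
    refine ⟨hin, ?_⟩
    by_contra ht
    refine htriv fun b hb => ?_
    have hht' : h = p - 1 := by
      rw [← hht, show O.t = 1 by have := O.t_pos; omega, mul_one]
    obtain ⟨e1, e2⟩ := hin b hb
    omega
  · left
    intro b hb
    have h1 := S.fix_inducing_Y hind O hb hφY
    have h2 := hle b hb.1
    rw [← hh, e] at h1
    rcases Nat.eq_zero_or_pos (S.blockFix φ b) with e0 | e0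
    · refine ⟨e0, ?_⟩
      rw [e0, mul_zero] at h1
      omega
    · have := Nat.le_mul_of_pos_right p e0
      omega

/-- When the blocks meet `φ` once each, the exponents are conjugate. -/
theorem expo_orbit {B : Set (IrrCharacter G)} (hB : IsPBlock M B) (hd : 0 < blockDefect p B)
    {b₀ : Set (IrrCharacter H)} (hind : IsInducedBlock M H b₀ B)
    (hni : ∀ b, IsPBlock M b → ¬ IsInducedBlock M H b B → blockMult φ b = 0)
    (hin : ∀ b, IsInducedBlock M H b B → S.blockFix φ b = 0 ∧ blockMult φ b = 1) :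
    ∃ e : ZMod p, e ≠ 0 ∧ ∀ i : ZMod p, S.eigMult φ i ≠ 0 →
      ∃ k : ℕ, IsConj (x ^ k) x ∧ i = (k : ZMod p) * e := by
  classical
  have h0 := (hin b₀ hind).2
  obtain ⟨φ₁, hφ₁, hne₁⟩ : ∃ φ₁ ∈ bf b₀, mult φ φ₁ ≠ 0 := by
    by_contra hno
    push Not at hno
    rw [blockMult, Finset.sum_eq_zero hno] at h0
    omega
  refine ⟨S.expo φ₁, fun he => ?_, fun i hi => ?_⟩
  · have h1 : mult φ φ₁ ≤ S.blockFix φ b₀ :=
      Finset.single_le_sum (f := fun φ' => mult φ φ') (fun _ _ => Nat.zero_le _)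
        (Finset.mem_filter.2 ⟨hφ₁, he⟩)
    have := (hin b₀ hind).1
    omega
  · obtain ⟨φ', hφ', hne⟩ := Finset.exists_ne_zero_of_sum_ne_zero hi
    have hne' : mult φ φ' ≠ 0 := left_ne_zero_of_mul hne
    set b := blockOf M (φ' : H → ℂ)
    have hb : IsPBlock M b := isPBlock_blockOf φ'
    have hbi : IsInducedBlock M H b B := by
      by_contra hbi
      have h1 : mult φ φ' ≤ blockMult φ b :=
        Finset.single_le_sum (f := fun φ' => mult φ φ') (fun _ _ => Nat.zero_le _)
          (mem_bf.2 (mem_blockOf_self φ'))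
      have := hni b hb hbi
      omega
    obtain ⟨g, hg, hgP, hgb⟩ :=
      (first_main_at S.hpM hB (S.isDefectGroup_zpowers hB hd).2 S.sup_eq_H).2 b b₀ hbi hind
    obtain ⟨r, -, hxr⟩ := S.exists_conj_pow hgP
    have hmem : irrEquiv (normEquiv hg) φ' ∈ b₀ := by
      have : φ' ∈ mapSet (normEquiv hg) b₀ := hgb.symm ▸ mem_blockOf_self φ'
      exact this
    have he : irrEquiv (normEquiv hg) φ' = φ₁ := by
      by_contra hd'
      have h1 : ∑ ψ ∈ ({irrEquiv (normEquiv hg) φ', φ₁} : Finset (IrrCharacter H)), mult φ ψ ≤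
          blockMult φ b₀ := Finset.sum_le_sum_of_subset (by
        intro ψ hψ
        rcases Finset.mem_insert.1 hψ with rfl | hψ
        · exact mem_bf.2 hmem
        · rw [Finset.mem_singleton.1 hψ]; exact hφ₁)
      rw [Finset.sum_pair hd', S.mult_conj hg φ φ', h0] at h1
      omega
    refine ⟨K ^ r, isConj_iff.2 ⟨g, by rw [← hxr]; group⟩, ?_⟩
    rw [← (Finset.mem_filter.1 hφ').2, S.expo_conj hg hxr φ', he, Nat.cast_pow]

/-- Without fusion a character of degree at most `p - 2` has `x` scalar. -/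
theorem scalar_of_no_fusion (hfus : ∀ k : ℕ, IsConj (x ^ k) x → x ^ k = x)
    (hn : charDegree (φ : G → ℂ) + 2 ≤ p) :
    ‖(φ : G → ℂ) x‖ = charDegree (φ : G → ℂ) := by
  classical
  by_contra hns
  obtain ⟨B, b₀, c, O, hB, hd, hind, hφY, hni, hcase⟩ := small_shape S hn hns
  have hone : (p - 1) / O.t = 1 := by
    rcases S.dichotomy hind O.t with ⟨-, n', hn', hxr, -⟩ | ⟨h0, -⟩
    · have h1 : x ^ K ^ O.t = x := hfus _ (isConj_iff.2 ⟨n', by rw [← hxr]; group⟩)
      have h2 : ((K : ℕ) : ZMod p) ^ O.t = ((1 : ℕ) : ZMod p) := by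
        rw [← Nat.cast_pow]
        exact S.pow_eq_pow_iff'.1 (by rw [pow_one]; exact h1)
      rw [Nat.cast_one] at h2
      have h3 := orderOf_dvd_of_pow_eq_one h2
      rw [S.ord] at h3
      have h4 : 0 < p - 1 := by have := hp.out.two_le; omega
      rw [Nat.dvd_antisymm O.t_dvd h3, Nat.div_self h4]
    · rw [Finset.sum_congr rfl fun χ _ => by rw [(O.period _).2 dvd_rfl χ],
        sum_dB S hind hind.1, if_pos rfl] at h0
      exact absurd h0 (Nat.cast_ne_zero.2 hp.out.ne_zero)
  rcases hcase with hin | ⟨hin, -⟩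
  · rw [hone] at hin
    obtain ⟨e, -, hall⟩ := expo_orbit S hB hd hind hni hin
    refine hns (norm_eq_of_single S e fun i hi => ?_)
    by_contra hne
    obtain ⟨k, hk, rfl⟩ := hall i hne
    refine hi ?_
    have h1 := S.pow_eq_pow_iff'.1 (show x ^ k = x ^ 1 by rw [pow_one]; exact hfus k hk)
    rw [h1, Nat.cast_one, one_mul]
  · have h1 := (hin b₀ hind).2
    rw [hone] at h1
    have h2 : blockMult φ b₀ ≤ charDegree (φ : G → ℂ) := by
      rw [S.degree_blocks]
      refine le_trans ?_ (Finset.single_le_sum (f := fun b => blockDeg b * blockMult φ b)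
        (fun _ _ => Nat.zero_le _) (mem_blockFinset.2 hind.1))
      exact Nat.le_mul_of_pos_left _ (S.blockDeg_pos hind.1)
    omega

/-- What the block of a nonscalar character of degree `p - 2` looks like. -/
theorem shape_pm2 (hn : charDegree (φ : G → ℂ) + 2 = p)
    (hns : ‖(φ : G → ℂ) x‖ ≠ charDegree (φ : G → ℂ)) :
    ∃ (B : Set (IrrCharacter G)) (b₀ : Set (IrrCharacter H)) (c : ℕ)
      (O : OneShape M p x σ B b₀ c), IsPBlock M B ∧
      IsInducedBlock M H b₀ B ∧ φ ∈ O.Y ∧ 2 * O.t = p - 1 ∧ blockDeg b₀ = 1 ∧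
      blockMult φ b₀ = p - 2 ∧ S.eigMult φ 0 = 1 ∧
      (∀ b, IsPBlock M b → b ≠ b₀ → blockMult φ b = 0) ∧
      (∀ b, IsInducedBlock M H b B → b = b₀) := by
  classical
  have hp5 : 3 ≤ p := by have := (Blocks.charDegree_eq φ.2).2; omega
  obtain ⟨B, b₀, c, O, hB, hd, hind, hφY, hni, hcase⟩ := small_shape S hn.le hns
  set h := (p - 1) / O.t with hh
  have hht : h * O.t = p - 1 := Nat.div_mul_cancel O.t_dvd
  set Ind := (blockFinset M H).filter fun b => IsInducedBlock M H b B with hInd
  set D := ∑ b ∈ Ind, blockDeg b with hD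
  have hsum : ∀ v : ℕ, (∀ b, IsInducedBlock M H b B → blockMult φ b = v) →
      charDegree (φ : G → ℂ) = D * v := fun v hv => by
    rw [S.degree_blocks, hD, Finset.sum_mul, hInd, Finset.sum_filter]
    refine Finset.sum_congr rfl fun b hb => ?_
    split_ifs with hi
    · rw [hv b hi]
    · rw [hni b (mem_blockFinset.1 hb) hi, mul_zero]
  rcases hcase with hin | ⟨hin, ht2⟩
  · -- the sign `-1` would make `x` scalar
    exfalso
    have h1 : h = 1 := by
      have hd1 : h ∣ p - 2 := by
        rw [show p - 2 = charDegree (φ : G → ℂ) by omega, hsum h fun b hb => (hin b hb).2]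
        exact dvd_mul_left _ _
      have h2 : h ∣ p - 1 := ⟨O.t, hht.symm⟩
      have h3 := Nat.dvd_sub h2 hd1
      rw [show p - 1 - (p - 2) = 1 by omega] at h3
      exact Nat.dvd_one.1 h3
    rw [h1] at hin
    obtain ⟨e, he, hall⟩ := expo_orbit S hB hd hind hni hin
    let R : Subgroup (ZMod p)ˣ :=
      { carrier := {u | IsConj (x ^ (u : ZMod p).val) x}
        one_mem' := by
          show IsConj (x ^ ((1 : (ZMod p)ˣ) : ZMod p).val) x
          rw [show x ^ ((1 : (ZMod p)ˣ) : ZMod p).val = x ^ 1 from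
            S.pow_eq_pow_iff'.2 (by rw [Units.val_one, ZMod.natCast_rightInverse, Nat.cast_one]),
            pow_one]
        mul_mem' := fun {u v} hu hv => by
          show IsConj (x ^ ((u * v : (ZMod p)ˣ) : ZMod p).val) x
          rw [show x ^ ((u * v : (ZMod p)ˣ) : ZMod p).val =
            x ^ ((u : ZMod p).val * (v : ZMod p).val) from S.pow_eq_pow_iff'.2 (by
              rw [Nat.cast_mul, Units.val_mul, ZMod.natCast_rightInverse,
                ZMod.natCast_rightInverse, ZMod.natCast_rightInverse]), pow_mul]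
          exact ((hu : IsConj (x ^ (u : ZMod p).val) x).pow _).trans hv
        inv_mem' := fun {u} hu => by
          show IsConj (x ^ ((u⁻¹ : (ZMod p)ˣ) : ZMod p).val) x
          have h2 := (hu : IsConj (x ^ (u : ZMod p).val) x).pow ((u⁻¹ : (ZMod p)ˣ) : ZMod p).val
          rw [← pow_mul, show x ^ ((u : ZMod p).val * ((u⁻¹ : (ZMod p)ˣ) : ZMod p).val) = x ^ 1 from
            S.pow_eq_pow_iff'.2 (by
              rw [Nat.cast_mul, ZMod.natCast_rightInverse, ZMod.natCast_rightInverse, Nat.cast_one,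
                Units.mul_inv]), pow_one] at h2
          exact h2.symm }
    haveI : Fintype R := Fintype.ofFinite R
    set supp := Finset.univ.filter fun i : ZMod p => S.eigMult φ i ≠ 0 with hsupp
    have hconst : ∀ u ∈ R, S.eigMult φ ((u : ZMod p) * e) = S.eigMult φ e := fun u hu => by
      have h2 := eig_invariant_of_conj S (φ := φ) (k := (u : ZMod p).val)
        (by rw [ZMod.natCast_rightInverse]; exact u.ne_zero) hu e
      rwa [ZMod.natCast_rightInverse] at h2
    have hsub : supp ⊆ (Finset.univ : Finset R).image fun u : R => ((u : (ZMod p)ˣ) : ZMod p) * e := by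
      intro i hi
      obtain ⟨k, hk, rfl⟩ := hall i (Finset.mem_filter.1 hi).2
      have hk0 : (k : ZMod p) ≠ 0 := fun h0 => by
        have h2 := hk
        rw [show x ^ k = x ^ 0 from S.pow_eq_pow_iff'.2 (by rw [h0, Nat.cast_zero]), pow_zero] at h2
        have h3 := isConj_one_right.1 h2
        have h4 := S.hx
        rw [h3, orderOf_one] at h4
        exact hp.out.ne_one h4.symm
      refine Finset.mem_image.2 ⟨⟨Units.mk0 _ hk0, ?_⟩, Finset.mem_univ _, rfl⟩
      show IsConj (x ^ ((Units.mk0 _ hk0 : (ZMod p)ˣ) : ZMod p).val) x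
      rw [show x ^ ((Units.mk0 _ hk0 : (ZMod p)ˣ) : ZMod p).val = x ^ k from
        S.pow_eq_pow_iff'.2 (by rw [Units.val_mk0, ZMod.natCast_rightInverse])]
      exact hk
    have hn2 : charDegree (φ : G → ℂ) = Nat.card R * S.eigMult φ e := by
      rw [S.degree_eig, ← Finset.sum_filter_ne_zero, ← hsupp,
        Finset.sum_subset hsub fun i _ hi => by
          by_contra h; exact hi (Finset.mem_filter.2 ⟨Finset.mem_univ i, h⟩),
        Finset.sum_image fun a _ b _ h => Subtype.ext (Units.ext (mul_right_cancel₀ he h)),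
        Finset.sum_congr rfl fun u _ => hconst u.1 u.2, Finset.sum_const, Finset.card_univ,
        smul_eq_mul, Nat.card_eq_fintype_card]
    have hR : Nat.card R = 1 := by
      have h2 : Nat.card R ∣ p - 1 := by
        have h3 := Subgroup.card_subgroup_dvd_card R
        rwa [Nat.card_eq_fintype_card (α := (ZMod p)ˣ), ZMod.card_units] at h3
      have h3 : Nat.card R ∣ p - 2 := ⟨S.eigMult φ e, by omega⟩
      have h4 := Nat.dvd_sub h2 h3
      rw [show p - 1 - (p - 2) = 1 by omega] at h4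
      exact Nat.dvd_one.1 h4
    refine hns (norm_eq_of_single S e fun i hi => ?_)
    by_contra hne
    obtain ⟨u, -, rfl⟩ := Finset.mem_image.1 (hsub (Finset.mem_filter.2 ⟨Finset.mem_univ i, hne⟩))
    refine hi ?_
    haveI : Subsingleton R := (Nat.card_eq_one_iff_unique.1 hR).1
    rw [Subsingleton.elim u 1, OneMemClass.coe_one, Units.val_one, one_mul]
  · have h2h : 2 * h ≤ p - 1 := by
      rw [← hht, mul_comm 2]; exact Nat.mul_le_mul_left h ht2
    have h1 := hsum (p - h) fun b hb => (hin b hb).2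
    have hmem : b₀ ∈ Ind := Finset.mem_filter.2 ⟨mem_blockFinset.2 hind.1, hind⟩
    have hDpos : 0 < D := lt_of_lt_of_le (S.blockDeg_pos hind.1)
      (Finset.single_le_sum (f := fun b => blockDeg b) (fun _ _ => Nat.zero_le _) hmem)
    have hD1 : D = 1 := by
      by_contra hne
      have : 2 * (p - h) ≤ D * (p - h) := Nat.mul_le_mul_right _ (by omega)
      omega
    rw [hD1, one_mul] at h1
    have hh2 : h = 2 := by omega
    have hsplit := Finset.add_sum_erase Ind (fun b => blockDeg b) hmem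
    rw [← hD, hD1] at hsplit
    have hdeg1 : blockDeg b₀ = 1 := by
      have := S.blockDeg_pos hind.1
      omega
    have huniq : ∀ b, IsInducedBlock M H b B → b = b₀ := fun b hb => by
      by_contra hne
      have h3 := Finset.single_le_sum (f := fun b => blockDeg b) (fun _ _ => Nat.zero_le _)
        (Finset.mem_erase.2 ⟨hne, Finset.mem_filter.2 ⟨mem_blockFinset.2 hb.1, hb⟩⟩ :
          b ∈ Ind.erase b₀)
      have := S.blockDeg_pos hb.1
      omega
    refine ⟨B, b₀, c, O, hB, hind, hφY, by rw [← hht, hh2], hdeg1,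
      by rw [(hin b₀ hind).2, hh2], ?_, fun b hb hne => hni b hb fun hi => hne (huniq b hi), huniq⟩
    rw [S.eig_zero_blocks, Finset.sum_eq_single b₀]
    · rw [hdeg1, (hin b₀ hind).1]
    · intro b hb hne
      have h3 := S.blockFix_le φ b
      rw [hni b (mem_blockFinset.1 hb) fun hi => hne (huniq b hi)] at h3
      rw [Nat.le_zero.1 h3, mul_zero]
    · exact fun h => absurd (mem_blockFinset.2 hind.1) h

/-- The local structure: the exponents missing, the regular centralisers, the fusion. -/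
theorem local_shape (hn : charDegree (φ : G → ℂ) + 2 = p)
    (hns : ‖(φ : G → ℂ) x‖ ≠ charDegree (φ : G → ℂ)) :
    ∃ a : ZMod p, a ≠ 0 ∧
      (∀ i, S.eigMult φ i = if i = a ∨ i = -a then 0 else 1) ∧
      (∀ j : ℕ, ¬ p ∣ j →
        (φ : G → ℂ) (x ^ j) = -(zc p ((j : ZMod p) * a) + zc p (-((j : ZMod p) * a)))) ∧
      (∀ c : H, ¬ p ∣ orderOf c → ‖(φ : G → ℂ) c‖ = charDegree (φ : G → ℂ)) ∧
      (∀ k : ℕ, IsConj (x ^ k) x → (k : ZMod p) = 1 ∨ (k : ZMod p) = -1) := by
  classical
  obtain ⟨B, b₀, c, O, hB, hind, hφY, ht, hdeg1, hbm, heig0, hout, huniq⟩ := shape_pm2 S hn hns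
  have hp1 : p - 1 + 1 = p := Nat.succ_pred_eq_of_pos hp.out.pos
  have hφB : φ ∈ B := O.Y_sub hφY
  have hh2 : (p - 1) / O.t = 2 := by rw [← ht]; exact Nat.mul_div_cancel _ O.t_pos
  obtain ⟨θ₀, hθ₀, hθ₀x⟩ := S.exists_trivial hind.1
  have hθone : (θ₀ : H → ℂ) 1 = 1 := by
    rw [(Blocks.charDegree_eq θ₀.2).1, S.blockDeg_eq hind.1 hθ₀, hdeg1, Nat.cast_one]
  -- values at powers of `x` are decomposition numbers
  have hval : ∀ χ ∈ B, (χ : G → ℂ) x = dB x b₀ χ := by
    intro χ hχ
    have hex : ∀ b, ∃ θ : IrrCharacter H, IsPBlock M b →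
        θ ∈ b ∧ (θ : H → ℂ) ⟨x, S.mem⟩ = (θ : H → ℂ) 1 ∧ (b = b₀ → θ = θ₀) := fun b => by
      by_cases hb : IsPBlock M b
      · by_cases he : b = b₀
        · exact ⟨θ₀, fun _ => ⟨he ▸ hθ₀, hθ₀x, fun _ => rfl⟩⟩
        · obtain ⟨θ, h1, h2⟩ := S.exists_trivial hb
          exact ⟨θ, fun _ => ⟨h1, h2, fun h => absurd h he⟩⟩
      · exact ⟨θ₀, fun h => absurd h hb⟩
    choose θf hθf using hex
    have h := value_section S hB hχ (s := 1)
      (by rw [orderOf_one]; exact hp.out.not_dvd_one) θf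
      fun b hb => ⟨(hθf b hb).1, (hθf b hb).2.1⟩
    rw [OneMemClass.coe_one, mul_one, Finset.sum_eq_single b₀] at h
    · rw [h, (hθf b₀ hind.1).2.2 rfl, hθone, mul_one]
    · exact fun b hb hne => absurd (huniq b (Finset.mem_filter.1 hb).2) hne
    · exact fun h => absurd (Finset.mem_filter.2 ⟨mem_blockFinset.2 hind.1, hind⟩) h
  have horbit : ∀ r, (gal σ)^[r] φ ∈ O.Y := fun r => (O.orbit φ hφY _).1 ⟨r, rfl⟩
  -- the norm over the exceptional family
  set F : ℕ → ℂ := fun r => (φ : G → ℂ) (x ^ K ^ r) * conj ((φ : G → ℂ) (x ^ K ^ r)) with hF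
  have hFdB : ∀ r, F r = dB x b₀ ((gal σ)^[r] φ) * conj (dB x b₀ ((gal σ)^[r] φ)) := fun r => by
    rw [← hval _ (O.Y_sub (horbit r)), S.gal_value]
  have himg : (bf B).filter (fun θ => θ ∈ O.Y) = (Finset.range O.t).image fun r => (gal σ)^[r] φ := by
    ext θ
    simp only [Finset.mem_filter, mem_bf, Finset.mem_image, Finset.mem_range]
    constructor
    · rintro ⟨-, hθ⟩
      obtain ⟨r, hr⟩ := (O.orbit φ hφY θ).2 hθ
      refine ⟨r % O.t, Nat.mod_lt _ O.t_pos, ?_⟩
      rw [← hr]
      conv_rhs => rw [← Nat.mod_add_div r O.t, iterate_add_apply,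
        show (gal σ)^[O.t * (r / O.t)] φ = φ from IsPeriodicPt.mul_const (O.fixed_t φ hφB) _]
    · rintro ⟨r, -, rfl⟩
      exact ⟨O.Y_sub (horbit r), horbit r⟩
  have hinj : Set.InjOn (fun r => (gal σ)^[r] φ) (Finset.range O.t : Set ℕ) := by
    refine Finset.injOn_of_card_image_eq ?_
    rw [← himg, Finset.card_range]
    conv_rhs => rw [← O.card_Y, Nat.card_coe_set_eq]
    rw [← Set.ncard_coe_finset]
    congr 1
    ext θ
    simp only [Finset.coe_filter, mem_bf, Set.mem_setOf_eq]
    exact ⟨fun h => h.2, fun h => ⟨O.Y_sub h, h⟩⟩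
  have hhalf : ∑ r ∈ Finset.range O.t, F r = (p : ℂ) - 2 := by
    have h := sum_dB S hind hind.1
    rw [if_pos rfl, ← Finset.sum_filter_add_sum_filter_not (bf B) (fun θ => θ ∈ O.Y), himg,
      Finset.sum_image hinj] at h
    have hX : ∑ χ ∈ (bf B).filter (fun θ => θ ∉ O.Y), dB x b₀ χ * conj (dB x b₀ χ) = 2 := by
      rw [Finset.sum_congr rfl (g := fun _ => (1 : ℂ)) fun χ hχ => ?_, Finset.sum_const,
        nsmul_eq_mul, mul_one]
      · have hc := O.card_X
        rw [hh2, Nat.card_coe_set_eq] at hc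
        rw [show ((bf B).filter fun θ => θ ∉ O.Y).card = 2 from ?_, Nat.cast_ofNat]
        rw [← hc, ← Set.ncard_coe_finset]
        congr 1
        ext χ
        simp [mem_bf]
      · obtain ⟨hχB, hχY⟩ := Finset.mem_filter.1 hχ
        rw [O.dB_X χ (mem_bf.1 hχB) hχY]
        rcases O.sign χ (mem_bf.1 hχB) with e | e <;> rw [e] <;> simp
    rw [hX] at h
    rw [Finset.sum_congr rfl fun r _ => hFdB r]
    linear_combination h
  have hfull : ∑ r ∈ Finset.range (p - 1), F r = 2 * ((p : ℂ) - 2) := by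
    have hper : ∀ i, F (i + O.t) = F i := fun i => by
      rw [hFdB, hFdB, iterate_add_apply, O.fixed_t φ hφB]
    have h := sum_range_periodic hper 2
    rw [hhalf, ht, nsmul_eq_mul] at h
    rw [h, Nat.cast_ofNat]
  -- the eigenvalues are simple
  have hsq : ∑ i : ZMod p, S.eigMult φ i * S.eigMult φ i = charDegree (φ : G → ℂ) := by
    have h := S.sum_values_mul φ 1
    simp only [mul_one, Nat.cast_one, one_mul, Finset.sum_ite_eq, Finset.mem_univ, if_true] at h
    rw [← Finset.add_sum_erase _ _ (Finset.mem_univ (0 : ZMod p))] at h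
    have h2 : ∑ j ∈ Finset.univ.erase (0 : ZMod p),
        (φ : G → ℂ) (x ^ j.val) * conj ((φ : G → ℂ) (x ^ j.val)) =
        ∑ r ∈ Finset.range (p - 1), F r := by
      symm
      refine Finset.sum_bij (fun r _ => ((K : ℕ) : ZMod p) ^ r) (fun r _ => ?_)
        (fun r hr r' hr' h => ?_) (fun i hi => ?_) fun r _ => ?_
      · exact Finset.mem_erase.2 ⟨pow_ne_zero r S.K_ne_zero, Finset.mem_univ _⟩
      · refine pow_injOn_Iio_orderOf (x := ((K : ℕ) : ZMod p)) ?_ ?_ h
        · rw [S.ord]; exact Set.mem_Iio.2 (Finset.mem_range.1 hr)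
        · rw [S.ord]; exact Set.mem_Iio.2 (Finset.mem_range.1 hr')
      · obtain ⟨r, hr, hr'⟩ := S.exists_pow_K (Finset.mem_erase.1 hi).1
        exact ⟨r, Finset.mem_range.2 hr, hr'⟩
      · simp only [hF]
        rw [show x ^ K ^ r = x ^ (((K : ℕ) : ZMod p) ^ r).val from S.pow_eq_pow_iff'.2 (by
          rw [ZMod.natCast_rightInverse, Nat.cast_pow])]
    rw [h2, hfull, ZMod.val_zero, pow_zero, (Blocks.charDegree_eq φ.2).1, map_natCast] at h
    set n := charDegree (φ : G → ℂ)
    have hnp : (p : ℂ) = (n : ℂ) + 2 := by exact_mod_cast hn.symm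
    have h3 : (p : ℂ) * ((∑ i : ZMod p, S.eigMult φ i * S.eigMult φ i : ℕ) : ℂ) = (p : ℂ) * (n : ℂ) := by
      rw [← h, hnp]; ring
    exact_mod_cast mul_left_cancel₀ (Nat.cast_ne_zero.2 hp.out.ne_zero) h3
  have hle1 : ∀ i : ZMod p, S.eigMult φ i ≤ 1 := by
    intro i
    have hle : ∀ i ∈ (Finset.univ : Finset (ZMod p)),
        S.eigMult φ i ≤ S.eigMult φ i * S.eigMult φ i := fun i _ => Nat.le_mul_self _
    have h1 := (Finset.sum_eq_sum_iff_of_le hle).1
      (by rw [hsq]; exact (S.degree_eig φ).symm) i (Finset.mem_univ i)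
    by_contra hlt
    have : 2 * S.eigMult φ i ≤ S.eigMult φ i * S.eigMult φ i :=
      Nat.mul_le_mul_right _ (by omega)
    omega
  set Z := Finset.univ.filter fun i : ZMod p => S.eigMult φ i = 0 with hZ
  have hZc : Z.card = 2 := by
    have h1 : ∑ i : ZMod p, S.eigMult φ i =
        (Finset.univ.filter fun i : ZMod p => ¬ S.eigMult φ i = 0).card := by
      rw [← Finset.sum_filter_ne_zero, Finset.card_eq_sum_ones]
      exact Finset.sum_congr rfl fun i hi => by
        have := hle1 i
        have := (Finset.mem_filter.1 hi).2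
        omega
    have h2 := Finset.card_filter_add_card_filter_not
      (s := (Finset.univ : Finset (ZMod p))) (fun i => S.eigMult φ i = 0)
    rw [← hZ, ← h1, ← S.degree_eig φ, Finset.card_univ, ZMod.card] at h2
    omega
  obtain ⟨a, ha⟩ : Z.Nonempty := Finset.card_pos.1 (by omega)
  have ha0 : S.eigMult φ a = 0 := (Finset.mem_filter.1 ha).2
  have hane : a ≠ 0 := fun h => by rw [h, heig0] at ha0; omega
  have hKt : ((K ^ O.t : ℕ) : ZMod p) = -1 := by
    have h1 : (((K : ℕ) : ZMod p) ^ O.t) ^ 2 = 1 := by rw [← pow_mul, mul_comm, ht, S.hKpow]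
    rw [Nat.cast_pow]
    refine (sq_eq_one_iff.1 h1).resolve_left fun h2 => ?_
    have h3 := orderOf_dvd_of_pow_eq_one h2
    rw [S.ord] at h3
    have := Nat.le_of_dvd O.t_pos h3
    have := O.t_pos
    omega
  have hneg : S.eigMult φ (-a) = 0 := by
    have h := eig_invariant S (φ := φ) (k := K ^ O.t) (by
      rw [hKt]; exact neg_ne_zero.2 one_ne_zero) (fun j => by
      have h1 := S.gal_value φ O.t (x ^ j)
      rw [O.fixed_t φ hφB, ← pow_mul] at h1
      exact h1.symm) a
    rwa [hKt, neg_one_mul, ha0] at h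
  have hodd : Odd p := hp.out.odd_of_ne_two (by omega)
  have hne2 : a ≠ -a := fun h => by
    have h2 : (2 : ZMod p) * a = 0 := by rw [two_mul]; nth_rewrite 2 [h]; rw [add_neg_cancel]
    rcases mul_eq_zero.1 h2 with h3 | h3
    · have h4 : ((2 : ℕ) : ZMod p) = 0 := by rw [Nat.cast_ofNat]; exact h3
      rw [ZMod.natCast_eq_zero_iff] at h4
      have := Nat.le_of_dvd two_pos h4
      omega
    · exact hane h3
  have hZeq : ({a, -a} : Finset (ZMod p)) = Z := by
    refine Finset.eq_of_subset_of_card_le ?_ (by rw [hZc, Finset.card_pair hne2])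
    intro i hi
    rcases Finset.mem_insert.1 hi with rfl | hi
    · exact ha
    · rw [Finset.mem_singleton.1 hi]; exact Finset.mem_filter.2 ⟨Finset.mem_univ _, hneg⟩
  have heig : ∀ i, S.eigMult φ i = if i = a ∨ i = -a then 0 else 1 := by
    intro i
    split_ifs with hi
    · rcases hi with rfl | rfl
      · exact ha0
      · exact hneg
    · have h1 : i ∉ Z := by rw [← hZeq]; simpa using hi
      have h2 : S.eigMult φ i ≠ 0 := fun h => h1 (Finset.mem_filter.2 ⟨Finset.mem_univ i, h⟩)
      have := hle1 i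
      omega
  refine ⟨a, hane, heig, fun j hj => ?_, fun s hs => ?_, fun k hk => ?_⟩
  · rw [S.value_eig φ j,
      Finset.sum_congr rfl (g := fun i => zc p ((j : ZMod p) * i) -
        if i ∈ ({a, -a} : Finset (ZMod p)) then zc p ((j : ZMod p) * i) else 0) fun i _ => by
        rw [heig i]
        simp only [Finset.mem_insert, Finset.mem_singleton]
        split_ifs <;> simp,
      Finset.sum_sub_distrib, Finset.sum_ite_mem, Finset.univ_inter, Finset.sum_pair hne2, mul_neg]
    have h1 : ∑ i : ZMod p, zc p ((j : ZMod p) * i) = 0 := by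
      rw [Finset.sum_congr rfl fun i _ => by rw [mul_comm]]
      exact (zc_sum (p := p) (j : ZMod p)).trans
        (if_neg fun h => hj ((ZMod.natCast_eq_zero_iff j p).1 h))
    rw [h1, zero_sub]
  · have hφc : (φ : G → ℂ) s = ((p - 2 : ℕ) : ℂ) * (θ₀ : H → ℂ) s := by
      rw [apply_eq_sum_mult φ s, ← hbm, blockMult, Nat.cast_sum, Finset.sum_mul]
      refine (Finset.sum_subset (Finset.subset_univ (bf b₀)) fun ψ _ hψ => ?_).symm.trans
        (Finset.sum_congr rfl fun ψ hψ => by
          rw [(S.block_loc hind.1 hθ₀ hθ₀x).1 ψ (mem_bf.1 hψ) s hs])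
      have h1 : mult φ ψ ≤ blockMult φ (blockOf M (ψ : H → ℂ)) :=
        Finset.single_le_sum (f := fun φ' => mult φ φ') (fun _ _ => Nat.zero_le _)
          (mem_bf.2 (mem_blockOf_self ψ))
      rw [hout _ (isPBlock_blockOf ψ) fun h => hψ (mem_bf.2 (h ▸ mem_blockOf_self ψ))] at h1
      rw [Nat.le_zero.1 h1, Nat.cast_zero, zero_mul]
    obtain ⟨f, hf⟩ := Chars.exists_hom_of_degree_one (Chars.irr_isCharacter θ₀) hθone
    rw [hφc, norm_mul, Complex.norm_natCast, show (θ₀ : H → ℂ) s = _ from congrFun hf s,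
      Complex.norm_eq_one_of_pow_eq_one ?_ (orderOf_pos s).ne', mul_one]
    · exact_mod_cast (show p - 2 = charDegree (φ : G → ℂ) by omega)
    · rw [← Units.val_pow_eq_pow_val, ← map_pow, pow_orderOf_eq_one, map_one, Units.val_one]
  · have hk0 : (k : ZMod p) ≠ 0 := fun h0 => by
      rw [show x ^ k = x ^ 0 from S.pow_eq_pow_iff'.2 (by rw [h0, Nat.cast_zero]), pow_zero] at hk
      have h3 := isConj_one_right.1 hk
      have h4 := S.hx
      rw [h3, orderOf_one] at h4
      exact hp.out.ne_one h4.symm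
    have h := eig_invariant_of_conj S (φ := φ) hk0 hk a
    rw [ha0] at h
    have h1 : (k : ZMod p) * a ∈ ({a, -a} : Finset (ZMod p)) := by
      rw [hZeq]; exact Finset.mem_filter.2 ⟨Finset.mem_univ _, h⟩
    rcases Finset.mem_insert.1 h1 with h2 | h2
    · exact Or.inl (mul_right_cancel₀ hane (h2.trans (one_mul a).symm))
    · exact Or.inr (mul_right_cancel₀ hane ((Finset.mem_singleton.1 h2).trans (neg_one_mul a).symm))

end Cfsg.Agent.Blocks.DegreePMinusTwo
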