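import Cfsg.Agent.Blocks.DegreePMinusTwo.Bound
import Cfsg.Agent.Blocks.TwicePrime.Main
import Cfsg.Agent.S4701

/-!
A group whose Sylow `p`-subgroup has order `p` and is not normal with a faithful irreducible
character of degree `p - 2` is `SL(2, p - 1)` times its centre.
-/

set_option autoImplicit false
set_option linter.unusedSectionVars false
set_option linter.style.haveILetI false

namespace Cfsg.Agent.Blocks.DegreePMinusTwo

open Cfsg Cfsg.Agent Cfsg.Agent.Blocks Cfsg.Agent.BlockChar Cfsg.Agent.Chars2.Cyc Function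
  Screen.BrauerP
open scoped ComplexConjugate

universe u

variable {G : Type u} [Group G]

theorem mem_center_of_card_two (N : Subgroup G) (hN : N.Normal) (hc : Nat.card N = 2) :
    N ≤ Subgroup.center G := by
  intro a ha
  refine Subgroup.mem_center_iff.2 fun g => ?_
  by_cases ha1 : a = 1
  · rw [ha1, mul_one, one_mul]
  haveI : Finite N := Nat.finite_of_card_ne_zero (by rw [hc]; norm_num)
  obtain ⟨x, y, hxy, hu⟩ := Nat.card_eq_two_iff.1 hc
  have hall : ∀ z : N, z = 1 ∨ z = ⟨a, ha⟩ := fun z => by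
    have hz : z ∈ ({x, y} : Set N) := hu ▸ Set.mem_univ z
    have h1 : (1 : N) ∈ ({x, y} : Set N) := hu ▸ Set.mem_univ _
    have h2 : (⟨a, ha⟩ : N) ∈ ({x, y} : Set N) := hu ▸ Set.mem_univ _
    have hne : (⟨a, ha⟩ : N) ≠ 1 := fun h => ha1 (congrArg Subtype.val h)
    simp only [Set.mem_insert_iff, Set.mem_singleton_iff] at hz h1 h2
    rcases hz with rfl | rfl <;> rcases h1 with h1 | h1 <;> rcases h2 with h2 | h2 <;>
      first
        | exact Or.inl h1.symm
        | exact Or.inr h2.symm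
        | exact absurd (h2.trans h1.symm) hne
  rcases hall ⟨g * a * g⁻¹, hN.conj_mem a ha g⟩ with h | h
  · exact absurd (conj_eq_one_iff.1 (congrArg Subtype.val h)) ha1
  · have h' : g * a * g⁻¹ = a := congrArg Subtype.val h
    exact mul_inv_eq_iff_eq_mul.1 h'

variable [Fintype G] {p m K : ℕ} [hp : Fact p.Prime] {M : Ideal AlgInt} [M.IsMaximal] {x : G}
  {σ : ℂ ≃+* ℂ} {H : Subgroup G} [Fintype H] {φ : IrrCharacter G}

/-- The order. -/
theorem Core.card_eq (D : Core M p m K x σ H φ) (hZ : Subgroup.center G = ⊥) :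
    Nat.card G = p * (p - 1) * (p - 2) := by
  classical
  have hp5 := D.hp5
  haveI : Subsingleton (Subgroup.center G) := by rw [hZ]; infer_instance
  have hlam : ∀ χ : IrrCharacter G, χ ∈ sector φ := fun χ => mem_sector.2
    (MonoidHom.ext fun z => by rw [Subsingleton.elim z 1, map_one, map_one])
  obtain ⟨μ₁, μ₂, ε₁, ε₂, m₁, m₂, hne, -, -, hf₁, hf₂, he₁, he₂, hv₁, hv₂, -, -, hoth, hrel⟩ :=
    D.exists_pair
  have hone : ((1 : ℕ) : ZMod p) ≠ 0 := by rw [Nat.cast_one]; exact one_ne_zero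
  have hreg1 : ¬ p ∣ orderOf (1 : G) := by rw [orderOf_one]; exact hp.out.not_dvd_one
  have hdegone : charDegree ((oneChar G : IrrCharacter G) : G → ℂ) = 1 := by
    simp [coe_oneChar, charDegree]
  have hfamdeg : ∀ χ ∈ D.fam, charDegree (χ : G → ℂ) = p - 2 := fun χ hχ => by
    have h := D.fam_reg hχ hreg1
    rw [apply_one_eq_deg, D.phi_one] at h
    exact_mod_cast h
  have h1f : oneChar G ∉ D.fam := fun h => by
    have := hfamdeg _ h
    omega
  have h1v : ∀ y : G, ((oneChar G : IrrCharacter G) : G → ℂ) y = 1 := fun y => by simp [coe_oneChar]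
  obtain ⟨μ, e, hμf, hμ1, hv, he, hoth', hrel'⟩ : ∃ (μ : IrrCharacter G) (e : ℤ), μ ∉ D.fam ∧
      μ ≠ oneChar G ∧ (∀ j : ℕ, (j : ZMod p) ≠ 0 → (μ : G → ℂ) (x ^ j) = e) ∧ (e = 1 ∨ e = -1) ∧
      (∀ χ : IrrCharacter G, χ ∉ D.fam → χ ≠ oneChar G → χ ≠ μ → (χ : G → ℂ) x = 0) ∧
      ∀ g : G, ¬ p ∣ orderOf g → (φ : G → ℂ) g + 1 + (e : ℂ) * (μ : G → ℂ) g = 0 := by
    have hmem : oneChar G = μ₁ ∨ oneChar G = μ₂ := by
      by_contra h
      push Not at h
      have := hoth _ (hlam _) h1f h.1 h.2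
      rw [h1v] at this
      exact one_ne_zero this
    rcases hmem with h | h
    · subst h
      have he1 : (ε₁ : ℂ) = 1 := by rw [← hv₁ 1 hone, h1v]
      refine ⟨μ₂, ε₂, hf₂, hne.symm, hv₂, he₂, fun χ a b c => hoth χ (hlam χ) a b c, fun g hg => ?_⟩
      have h := hrel g hg
      rwa [he1, h1v, mul_one] at h
    · subst h
      have he1 : (ε₂ : ℂ) = 1 := by rw [← hv₂ 1 hone, h1v]
      refine ⟨μ₁, ε₁, hf₁, hne, hv₁, he₁, fun χ a b c => hoth χ (hlam χ) a c b, fun g hg => ?_⟩
      have h := hrel g hg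
      rw [he1, h1v, mul_one] at h
      linear_combination h
  have h1 := hrel' 1 hreg1
  rw [D.phi_one, apply_one_eq_deg] at h1
  have h1' : ((p - 2 : ℕ) : ℤ) + 1 + e * charDegree (μ : G → ℂ) = 0 := by exact_mod_cast h1
  have hde : e = -1 ∧ charDegree (μ : G → ℂ) = p - 1 := by
    rcases he with g | g <;> rw [g] at h1' ⊢ <;> constructor <;> omega
  obtain ⟨he', hd⟩ := hde
  have hμx : ∀ j : ℕ, (j : ZMod p) ≠ 0 → (μ : G → ℂ) (x ^ j) = -1 := fun j hj => by
    rw [hv j hj, he', Int.cast_neg, Int.cast_one]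
  have hform : ∀ g : G, p ∣ orderOf g → ∃ (a : G) (j : ℕ), (j : ZMod p) ≠ 0 ∧ g = a * x ^ j * a⁻¹ := by
    intro g hg
    obtain ⟨a, j, s, hs, he⟩ := D.S.exists_singular_form hg
    have hsc := D.mem_center_of_regular s hs
    rw [hZ, Subgroup.mem_bot] at hsc
    exact ⟨a, K ^ j, by rw [Nat.cast_pow]; exact pow_ne_zero _ D.S.K_ne_zero, by
      rw [he, hsc, mul_one]⟩
  have hint : ∀ g : G, ∃ z : ℤ, (μ : G → ℂ) g = z := by
    intro g
    refine Chars.exists_int_of_fixed (Chars.isIntegral_of_isCharacter (Chars.irr_isCharacter μ) g)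
      fun τ => ?_
    set ν : IrrCharacter G := ⟨fun g => τ ((μ : G → ℂ) g), OddChar.isIrrCharacter_map τ μ.2⟩
    have hνv : ∀ g, (ν : G → ℂ) g = τ ((μ : G → ℂ) g) := fun g => rfl
    have hνd : charDegree (ν : G → ℂ) = p - 1 := by
      have h := hνv 1
      rw [apply_one_eq_deg, apply_one_eq_deg, hd, map_natCast] at h
      exact_mod_cast h
    have hνx : (ν : G → ℂ) x = -1 := by
      have h := hμx 1 hone
      rw [pow_one] at h
      rw [hνv, h, map_neg, map_one]
    have heq : ν = μ := by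
      by_contra hne'
      rw [hoth' ν (fun h => by have := hfamdeg _ h; omega)
        (fun h => by rw [h, hdegone] at hνd; omega) hne'] at hνx
      norm_num at hνx
    rw [← hνv, heq]
  have hsing : ∀ g : G, p ∣ orderOf g → (μ : G → ℂ) g = -1 := fun g hg => by
    obtain ⟨a, j, hj, rfl⟩ := hform g hg
    rw [Chars.isCharacter_conj_apply (Chars.irr_isCharacter μ)]
    exact hμx j hj
  have hμ1v : (μ : G → ℂ) 1 = ((p - 1 : ℕ) : ℂ) := by rw [apply_one_eq_deg, hd]
  have hrelR : ∀ g : G, ¬ p ∣ orderOf g → (φ : G → ℂ) g = (μ : G → ℂ) g - 1 := fun g hg => by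
    have h := hrel' g hg
    rw [he'] at h
    push_cast at h
    linear_combination h
  refine TwicePrime.card_eq hp.out (by omega) μ.2 φ.2 hμ1v hint (fun g hg => ?_) hsing hrelR ?_
  · by_cases hgp : p ∣ orderOf g
    · exfalso
      rw [hsing g hgp, hμ1v] at hg
      have h2 : ((-1 : ℤ) : ℂ) = (((p - 1 : ℕ) : ℤ) : ℂ) := by push_cast; exact hg
      have := Int.cast_injective h2
      omega
    · exact D.hfaith g (by rw [hrelR g hgp, hrelR 1 hreg1, hg])
  · have hle : H ≤ Subgroup.normalizer ((Subgroup.zpowers x : Subgroup G) : Set G) := by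
      refine le_trans ?_ (Subgroup.centralizer_le_normalizer _)
      rw [D.S.centralizer_zpowers]
    have hN : Nat.card (Subgroup.normalizer ((Subgroup.zpowers x : Subgroup G) : Set G)) = p * 2 := by
      have h := Subgroup.card_mul_index
        (H.subgroupOf (Subgroup.normalizer ((Subgroup.zpowers x : Subgroup G) : Set G)))
      rw [Nat.card_congr (Subgroup.subgroupOfEquivOfLe hle).toEquiv] at h
      change _ * H.relIndex _ = _ at h
      rw [D.relIndex_two, D.card_H, Nat.card_unique, mul_one] at h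
      exact h.symm
    have h := TwoPrimeOrder.sum_singular hp.out D.S.hx (fun g hg => by
        obtain ⟨a, j, -, rfl⟩ := hform g hg
        refine ⟨a⁻¹, ?_⟩
        rw [show a⁻¹ * (a * x ^ j * a⁻¹) * a⁻¹⁻¹ = x ^ j by group]
        exact Subgroup.pow_mem _ (Subgroup.mem_zpowers x) _)
      (fun g hg h => hp.out.not_dvd_one (by rw [h, orderOf_one] at hg; exact hg))
      (fun _ => 1) (fun _ _ => rfl)
    simp only [Finset.sum_const, nsmul_eq_mul, mul_one, Nat.card_Ico, hN] at h
    rw [mul_comm 2 p]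
    exact_mod_cast h

omit [Fintype G] [Fintype H] [M.IsMaximal] in
/-- The theorem. -/
theorem main [Finite G] (p : ℕ) [hp : Fact p.Prime] (hp5 : 5 < p) (P : Sylow p G)
    (hP : Nat.card P = p) (hnn : ¬ (P : Subgroup G).Normal) (ζ : G → ℂ) (hζ : IsIrrCharacter G ζ)
    (hfaith : ∀ g : G, ζ g = ζ 1 → g = 1) (hdeg : charDegree ζ = p - 2) :
    ∃ (a : ℕ) (F : Type) (_ : Field F) (_ : Fintype F), p = 2 ^ a + 1 ∧ Fintype.card F = 2 ^ a ∧
      Nonempty (G ≃* Matrix.SpecialLinearGroup (Fin 2) F × Subgroup.center G) := by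
  classical
  haveI := Fintype.ofFinite G
  obtain ⟨M, hMmax, hpM⟩ := DegreeGraph.exists_isMaximal_mem p
  haveI := hMmax
  let N : Subgroup G := Subgroup.closure {g : G | orderOf g = p}
  haveI hNn : N.Normal := by
    refine ⟨fun a ha g => ?_⟩
    have hle : N ≤ N.comap (MulAut.conj g).toMonoidHom := by
      refine (Subgroup.closure_le _).2 fun y hy => Subgroup.mem_comap.2 (Subgroup.subset_closure ?_)
      show orderOf ((MulAut.conj g) y) = p
      rw [MulEquiv.orderOf_eq]; exact hy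
    exact hle ha
  haveI := Fintype.ofFinite N
  have hPle : (P : Subgroup G) ≤ N := fun y hy => by
    by_cases hy1 : y = 1
    · rw [hy1]; exact one_mem _
    refine Subgroup.subset_closure ?_
    have h1 := Subgroup.orderOf_dvd_natCard _ hy
    rw [show Nat.card (P : Subgroup G) = p from hP] at h1
    exact ((Nat.dvd_prime hp.out).1 h1).resolve_left fun h => hy1 (orderOf_eq_one_iff.1 h)
  have hPN : Nat.card (P.subtype hPle) = p := by
    rw [show Nat.card (P.subtype hPle) = Nat.card ((P : Subgroup G).subgroupOf N) from rfl,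
      Nat.card_congr (Subgroup.subgroupOfEquivOfLe hPle).toEquiv]
    exact hP
  obtain ⟨xN, hxN, hPx, ⟨PD⟩⟩ := exists_pdata (by omega) (P.subtype hPle) hPN
  set x : G := (xN : G) with hxdef
  have hx : orderOf x = p := by rw [hxdef, Subgroup.orderOf_coe]; exact hxN
  have hv : (Nat.card G).factorization p = 1 :=
    Nat.pow_right_injective hp.out.two_le (by
      show p ^ _ = p ^ 1
      rw [← P.card_eq_multiplicity, pow_one]; exact hP)
  have hdiv : p ∣ Nat.card G := hx ▸ orderOf_dvd_natCard x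
  have hsq : ¬ p ^ 2 ∣ Nat.card G := fun h => by
    have := (hp.out.pow_dvd_iff_le_factorization Nat.card_pos.ne').1 h
    omega
  have hnn' : ∀ L : Subgroup G, L.Normal → Nat.card L ≠ p := by
    intro L hL hc
    set Q : Sylow p G := Sylow.ofCard L (by rw [hv, pow_one, hc]) with hQ
    have hQn : (Q : Subgroup G).Normal := by rw [hQ, Sylow.coe_ofCard]; exact hL
    haveI := Sylow.unique_of_normal Q hQn
    rw [Subsingleton.elim Q P] at hQn
    exact hnn hQn
  have hdN : p ∣ Nat.card N := by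
    have h := orderOf_dvd_natCard xN
    rwa [hxN] at h
  obtain ⟨K, σ, S⟩ := exists_once hpM hdN
    (fun h => hsq (h.trans (Subgroup.card_subgroup_dvd_card N))) hxN
  haveI : Fintype (Subgroup.centralizer ({xN} : Set N)) := Fintype.ofFinite _
  have hconj : ∀ y : N, orderOf (y : G) = p →
      ∃ a : N, a * y * a⁻¹ ∈ Subgroup.zpowers xN := fun y hy =>
    S.exists_conj_of_order (by rw [← Subgroup.orderOf_coe]; exact hy)
  have hall : ∀ (D : Subgroup N), D.Normal → xN ∈ D → ∀ y : N, y ∈ D := by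
    intro D hD hxD
    have hle : N ≤ D.map N.subtype := by
      refine (Subgroup.closure_le _).2 fun y hy => ?_
      obtain ⟨a, ha⟩ := hconj ⟨y, Subgroup.subset_closure hy⟩ hy
      refine ⟨⟨y, Subgroup.subset_closure hy⟩, ?_, rfl⟩
      have h := hD.conj_mem _ (Subgroup.zpowers_le.2 hxD ha) a⁻¹
      rwa [show a⁻¹ * (a * (⟨y, Subgroup.subset_closure hy⟩ : N) * a⁻¹) * a⁻¹⁻¹ =
        ⟨y, Subgroup.subset_closure hy⟩ by group] at h
    intro y
    obtain ⟨z, hz, he⟩ := hle y.2
    rwa [← Subtype.ext he]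
  have hgen : ∀ ψ : IrrCharacter N, (ψ : N → ℂ) xN = (ψ : N → ℂ) 1 → ψ = oneChar N := by
    intro ψ hψ
    have hc := fun y => (Chars.mem_charKer (Chars.irr_isCharacter ψ)).1
      (hall _ (Chars.charKer_normal (Chars.irr_isCharacter ψ))
        ((Chars.mem_charKer (Chars.irr_isCharacter ψ)).2 hψ) y)
    by_contra hne
    have h := Chars.classInner_irrCharacter ψ (oneChar N)
    rw [if_neg hne, Chars.classInner_def, Finset.sum_congr rfl fun y _ => by rw [hc y]] at h
    simp [coe_oneChar, Chars.irr_apply_one_ne_zero ψ.2] at h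
  have hζc := Chars.isCharacter_of_isIrr hζ
  have hζ1 : ζ 1 = ((p - 2 : ℕ) : ℂ) := by
    rw [(Blocks.charDegree_eq hζ).1, hdeg]
  have hres : IsCharacter N (fun g : N => ζ g) := Chars.isCharacter_restrict hζc N
  obtain ⟨mm, hmm, hdec⟩ := Chars.exists_eq_sum_nsmul hres
  have hval : ∀ g : N, ζ g = ∑ ψ : IrrCharacter N, (mm ψ : ℂ) * (ψ : N → ℂ) g := fun g => by
    have h := congrFun hdec g
    simp only [Finset.sum_apply, Pi.smul_apply, nsmul_eq_mul] at h
    exact h
  have hdsum : ∑ ψ : IrrCharacter N, mm ψ * charDegree (ψ : N → ℂ) = p - 2 := by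
    have h := hval 1
    rw [OneMemClass.coe_one, hζ1, Finset.sum_congr rfl fun ψ _ => by rw [apply_one_eq_deg ψ]] at h
    exact_mod_cast h.symm
  have hsmall : ∀ ψ : IrrCharacter N, mm ψ ≠ 0 → charDegree (ψ : N → ℂ) + 2 ≤ p := fun ψ h0 => by
    have h := Finset.single_le_sum (f := fun ψ => mm ψ * charDegree (ψ : N → ℂ))
      (fun _ _ => Nat.zero_le _) (Finset.mem_univ ψ)
    rw [hdsum] at h
    have := Nat.le_mul_of_pos_left (charDegree (ψ : N → ℂ)) (Nat.pos_of_ne_zero h0)
    omega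
  have hscalar_comm : ∀ ψ : IrrCharacter N, ‖(ψ : N → ℂ) xN‖ = charDegree (ψ : N → ℂ) →
      ∀ g : N, (ψ : N → ℂ) (xN * g * xN⁻¹ * g⁻¹) = (ψ : N → ℂ) 1 := by
    intro ψ h g
    obtain ⟨n, ρ, hρ⟩ := Chars.irr_isCharacter ψ
    have h1 : ρ.character 1 = (charDegree (ψ : N → ℂ) : ℂ) := by rw [hρ, apply_one_eq_deg]
    rw [Representation.char_one, Nat.cast_inj] at h1
    obtain ⟨c, hc⟩ := (Chars.rep_norm_char_eq_iff ρ xN).1 (by rw [hρ, h, h1])
    rw [← hρ]
    have e1 : ρ (xN * g) = ρ (g * xN) := by rw [map_mul, map_mul, hc]; simp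
    have e2 : ρ (xN * g * xN⁻¹ * g⁻¹) = ρ 1 := by
      rw [mul_assoc (xN * g), map_mul, e1, ← map_mul]
      congr 1
      group
    simp only [Representation.character, e2]
  obtain ⟨φ, hmφ, hns⟩ : ∃ φ : IrrCharacter N, mm φ ≠ 0 ∧
      ‖(φ : N → ℂ) xN‖ ≠ charDegree (φ : N → ℂ) := by
    by_contra hno
    push Not at hno
    have hcentral : ∀ g : N, xN * g = g * xN := by
      intro g
      have h := hval (xN * g * xN⁻¹ * g⁻¹)
      rw [Finset.sum_congr rfl (g := fun ψ => (mm ψ : ℂ) * (ψ : N → ℂ) 1) fun ψ _ => ?_, ← hval,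
        OneMemClass.coe_one] at h
      · have h' : xN * g * xN⁻¹ * g⁻¹ = 1 := Subtype.ext (hfaith _ h)
        rwa [mul_inv_eq_one, mul_inv_eq_iff_eq_mul] at h'
      · rcases Nat.eq_zero_or_pos (mm ψ) with h0 | h0
        · simp [h0]
        rw [hscalar_comm ψ (hno ψ h0.ne') g]
    have hsub : N = (Subgroup.zpowers xN).map N.subtype := by
      refine le_antisymm ((Subgroup.closure_le _).2 fun y hy => ?_) (Subgroup.map_subtype_le _)
      obtain ⟨a, ha⟩ := hconj ⟨y, Subgroup.subset_closure hy⟩ hy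
      refine ⟨⟨y, Subgroup.subset_closure hy⟩, ?_, rfl⟩
      obtain ⟨j, hj⟩ := ha
      have hcomm : Commute (xN ^ j) a⁻¹ := (show Commute xN a⁻¹ from hcentral a⁻¹).zpow_left j
      have hj' : xN ^ j = a * ⟨y, Subgroup.subset_closure hy⟩ * a⁻¹ := hj
      refine ⟨j, ?_⟩
      show xN ^ j = _
      calc xN ^ j = xN ^ j * a⁻¹ * a := by group
        _ = a⁻¹ * xN ^ j * a := by rw [hcomm.eq]
        _ = _ := by rw [hj']; group
    refine hnn' N hNn ?_
    have hc : Nat.card ((Subgroup.zpowers xN).map N.subtype) = p := by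
      rw [Subgroup.card_map_of_injective N.subtype_injective, Nat.card_zpowers, hxN]
    rwa [← hsub] at hc
  -- perfect
  have hperf : commutator N = ⊤ := by
    obtain ⟨k, hk, hkne⟩ : ∃ k : ℕ, IsConj (xN ^ k) xN ∧ xN ^ k ≠ xN := by
      by_contra hno
      push Not at hno
      exact hns (scalar_of_no_fusion S hno (hsmall φ hmφ))
    refine eq_top_iff.2 fun y _ => hall (commutator N) inferInstance ?_ y
    obtain ⟨c, hc⟩ := isConj_iff.1 hk
    have hmem : xN ^ ((1 : ℤ) - (k : ℤ)) ∈ commutator N := by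
      have h1 : c * xN ^ k * c⁻¹ * (xN ^ k)⁻¹ ∈ commutator N := by
        rw [commutator_def]
        exact Subgroup.commutator_mem_commutator (Subgroup.mem_top c) (Subgroup.mem_top (xN ^ k))
      rw [hc] at h1
      rwa [zpow_sub, zpow_one, zpow_natCast]
    have hne1 : xN ^ ((1 : ℤ) - (k : ℤ)) ≠ 1 := fun h => hkne (by
      rw [zpow_sub, zpow_one, zpow_natCast, mul_inv_eq_one] at h
      exact h.symm)
    have hle : Subgroup.zpowers (xN ^ ((1 : ℤ) - (k : ℤ))) = Subgroup.zpowers xN := by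
      refine Subgroup.eq_of_le_of_card_ge
        (Subgroup.zpowers_le.2 (Subgroup.zpow_mem _ (Subgroup.mem_zpowers _) _)) ?_
      have h2 := Subgroup.orderOf_dvd_natCard _
        (Subgroup.zpow_mem _ (Subgroup.mem_zpowers xN) ((1 : ℤ) - (k : ℤ)))
      rw [Nat.card_zpowers, hxN] at h2
      rw [Nat.card_zpowers, Nat.card_zpowers, hxN,
        ((Nat.dvd_prime hp.out).1 h2).resolve_left fun h => hne1 (orderOf_eq_one_iff.1 h)]
    exact (Subgroup.zpowers_le.2 hmem) (hle ▸ Subgroup.mem_zpowers xN)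
  -- every constituent is nonscalar
  have hallns : ∀ ψ : IrrCharacter N, mm ψ ≠ 0 → ‖(ψ : N → ℂ) xN‖ ≠ charDegree (ψ : N → ℂ) := by
    intro ψ h0 hsc
    set Kψ := Chars.charKer (Chars.irr_isCharacter ψ) with hKψ
    haveI : Kψ.Normal := Chars.charKer_normal (Chars.irr_isCharacter ψ)
    have hD : ∀ y : N, y ∈ (Subgroup.center (N ⧸ Kψ)).comap (QuotientGroup.mk' Kψ) := by
      refine hall _ inferInstance (Subgroup.mem_center_iff.2 fun b => ?_)
      induction b using QuotientGroup.induction_on with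
      | H b =>
        have h1 : xN * b * xN⁻¹ * b⁻¹ ∈ Kψ :=
          (Chars.mem_charKer (Chars.irr_isCharacter ψ)).2 (hscalar_comm ψ hsc b)
        have h2 := (QuotientGroup.eq_one_iff _).2 h1
        rw [QuotientGroup.mk_mul, QuotientGroup.mk_mul, QuotientGroup.mk_mul, QuotientGroup.mk_inv,
          QuotientGroup.mk_inv, mul_inv_eq_one, mul_inv_eq_iff_eq_mul] at h2
        exact h2.symm
    have hc : commutator N ≤ Kψ := Subgroup.Normal.quotient_commutative_iff_commutator_le.1
      ⟨⟨fun a b => by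
        induction a using QuotientGroup.induction_on with
        | H a => exact (Subgroup.mem_center_iff.1 (hD a) b).symm⟩⟩
    rw [hperf] at hc
    have hψ1 : ψ = oneChar N := hgen ψ
      ((Chars.mem_charKer (Chars.irr_isCharacter ψ)).1 (hc (Subgroup.mem_top xN)))
    have hcon : classInner (fun n : N => ζ n) ((oneChar N : IrrCharacter N) : N → ℂ) ≠ 0 := by
      rw [← hψ1, hmm]; exact Nat.cast_ne_zero.2 h0
    have hinv : Chars2.inertiaSub ((oneChar N : IrrCharacter N) : N → ℂ) = ⊤ :=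
      Chars2.inertiaSub_eq_top fun _ _ => by simp [coe_oneChar]
    have e1 := Chars2.clifford_invariant hζ (oneChar N).2 hinv hcon xN
    have e2 := Chars2.clifford_invariant hζ (oneChar N).2 hinv hcon 1
    have hone : ∀ y : N, ((oneChar N : IrrCharacter N) : N → ℂ) y = 1 := fun y => by simp [coe_oneChar]
    rw [hone] at e1 e2
    have h3 : x = 1 := hfaith x (by
      rw [hxdef, e1, ← OneMemClass.coe_one N, e2])
    rw [h3, orderOf_one] at hx
    omega
  have hbig : ∀ ψ : IrrCharacter N, mm ψ ≠ 0 → p ≤ 2 * charDegree (ψ : N → ℂ) + 1 :=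
    fun ψ h0 => S.le_of_nonscalar hgen (hallns ψ h0)
  have hmφ1 : mm φ = 1 := by
    by_contra hne
    have h := Finset.single_le_sum (f := fun ψ => mm ψ * charDegree (ψ : N → ℂ))
      (fun _ _ => Nat.zero_le _) (Finset.mem_univ φ)
    rw [hdsum] at h
    have h2 : 2 * charDegree (φ : N → ℂ) ≤ mm φ * charDegree (φ : N → ℂ) :=
      Nat.mul_le_mul_right _ (by omega)
    have := hbig φ hmφ
    omega
  have honly : ∀ ψ : IrrCharacter N, ψ ≠ φ → mm ψ = 0 := by
    intro ψ hne
    by_contra h0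
    have h : ∑ χ ∈ ({φ, ψ} : Finset (IrrCharacter N)), mm χ * charDegree (χ : N → ℂ) ≤ p - 2 :=
      hdsum ▸ Finset.sum_le_sum_of_subset (Finset.subset_univ _)
    rw [Finset.sum_pair hne.symm, hmφ1, one_mul] at h
    have := hbig φ hmφ
    have := hbig ψ h0
    have := Nat.le_mul_of_pos_left (charDegree (ψ : N → ℂ)) (Nat.pos_of_ne_zero h0)
    omega
  have hφeq : ∀ g : N, ζ g = (φ : N → ℂ) g := fun g => by
    rw [hval g, Finset.sum_eq_single φ (fun ψ _ hne => by rw [honly ψ hne]; simp)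
      (fun h => absurd (Finset.mem_univ _) h), hmφ1, Nat.cast_one, one_mul]
  have hφdeg : charDegree (φ : N → ℂ) + 2 = p := by
    have h := hφeq 1
    rw [OneMemClass.coe_one, hζ1, apply_one_eq_deg] at h
    have h' : p - 2 = charDegree (φ : N → ℂ) := by exact_mod_cast h
    omega
  have hφf : ∀ g : N, (φ : N → ℂ) g = (φ : N → ℂ) 1 → g = 1 := fun g hg => by
    rw [← hφeq, ← hφeq, OneMemClass.coe_one] at hg
    exact Subtype.ext (hfaith _ hg)
  have D : Core M p (Nat.card N / p) K xN σ (Subgroup.centralizer ({xN} : Set N)) φ :=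
    ⟨S, hp5, hφdeg, hφf, hperf, hns⟩
  have hZ := D.center_eq_bot PD
  have hcard := D.card_eq hZ
  -- the identification
  have hbigN : Nat.card N < p ^ 3 := by
    rw [hcard, pow_three]
    obtain ⟨r, rfl⟩ : ∃ r, p = r + 2 := ⟨p - 2, by omega⟩
    simp only [show r + 2 - 1 = r + 1 by omega, show r + 2 - 2 = r by omega]
    nlinarith
  have hnnN : ¬ ((P.subtype hPle : Sylow p N) : Subgroup N).Normal := by
    intro h
    have hxm : xN ∈ ((P.subtype hPle : Sylow p N) : Subgroup N) := by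
      rw [hPx]; exact Subgroup.mem_zpowers _
    have htop : ((P.subtype hPle : Sylow p N) : Subgroup N) = ⊤ :=
      eq_top_iff.2 fun y _ => hall _ h hxm y
    have hc : Nat.card ((P.subtype hPle : Sylow p N) : Subgroup N) = Nat.card N := by
      rw [htop, Subgroup.card_top]
    rw [show Nat.card ((P.subtype hPle : Sylow p N) : Subgroup N) = p from hPN, hcard] at hc
    have h2 : 2 ≤ (p - 1) * (p - 2) := le_trans (by norm_num) (Nat.mul_le_mul (show 2 ≤ p - 1 by omega)
      (show 1 ≤ p - 2 by omega))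
    have h3 : p * 2 ≤ p * ((p - 1) * (p - 2)) := Nat.mul_le_mul_left p h2
    rw [← mul_assoc, ← hc] at h3
    omega
  obtain ⟨u, huu, -, hux⟩ := D.exists_inverting
  rcases S4701.result hperf p hdN hbigN (P.subtype hPle) hnnN (fun L hL hc => by
      haveI := hL
      have h := mem_center_of_card_two L hL hc
      rw [hZ, le_bot_iff] at h
      rw [h, Subgroup.card_bot] at hc
      omega) with ⟨F, iF, iFt, hF, h3, ⟨e⟩⟩ | ⟨a, F, iF, iFt, hF, hpa, -, ⟨e⟩⟩
  · exfalso
    letI := iF
    letI := iFt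
    have h := TwicePrime.card_psl_two hp.out h3 hF
    rw [← Nat.card_congr e.toEquiv, hcard] at h
    obtain ⟨k, hk⟩ : ∃ k, p = k + 2 := ⟨p - 2, by omega⟩
    rw [show p ^ 2 - 1 = (p + 1) * (p - 1) by rw [← Nat.sq_sub_sq, one_pow], hk,
      show k + 2 - 1 = k + 1 by omega, show k + 2 - 2 = k by omega] at h
    have h4 : (k + 2) * (k + 1) * (2 * k) = (k + 2) * (k + 1) * (k + 3) := by
      rw [show (k + 2) * (k + 1) * (2 * k) = 2 * ((k + 2) * (k + 1) * k) by ring, h]
      ring
    have := Nat.eq_of_mul_eq_mul_left (by positivity) h4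
    omega
  refine ⟨a, F, iF, iFt, hpa, hF, ?_⟩
  -- `G` is the product of `N` and the centre
  obtain ⟨K', σ', SG⟩ := exists_once hpM hdiv hsq hx
  haveI : Fintype (Subgroup.centralizer ({x} : Set G)) := Fintype.ofFinite _
  set ζI : IrrCharacter G := ⟨ζ, hζ⟩
  have hnsG : ‖(ζI : G → ℂ) x‖ ≠ charDegree (ζI : G → ℂ) := by
    show ‖ζ x‖ ≠ charDegree ζ
    rw [hxdef, hφeq, hdeg, show p - 2 = charDegree (φ : N → ℂ) by omega]
    exact hns
  obtain ⟨b, -, -, -, hregc, hfus⟩ := local_shape SG (φ := ζI)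
    (show charDegree ζ + 2 = p by omega) hnsG
  have hcentr : ∀ c : G, c ∈ Subgroup.centralizer ({x} : Set G) →
      ∃ n ∈ N, ∃ z ∈ Subgroup.center G, c = n * z := by
    intro c hc
    have hcp : ¬ p ∣ orderOf (c ^ p) := fun hd => by
      rw [orderOf_pow] at hd
      by_cases hpc : p ∣ orderOf c
      · rw [Nat.gcd_eq_right hpc] at hd
        have h2 : p * p ∣ orderOf c := (Nat.dvd_div_iff_mul_dvd hpc).1 hd
        exact hsq (by rw [sq]; exact h2.trans (orderOf_dvd_natCard c))
      · rw [Nat.Coprime.gcd_eq_one ((hp.out.coprime_iff_not_dvd.2 hpc).symm), Nat.div_one] at hd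
        exact hpc hd
    have hz : c ^ p ∈ Subgroup.center G := by
      refine HalfDegree.mem_center_of_norm hζc hfaith ?_
      have h := hregc ⟨c ^ p, Subgroup.pow_mem _ hc p⟩ (by rwa [← Subgroup.orderOf_coe])
      change ‖ζ (c ^ p)‖ = (charDegree ζ : ℝ) at h
      rw [h, hζ1, Complex.norm_natCast, hdeg]
    have hn : c ^ (Nat.card G / p) ∈ N := by
      by_cases h1 : c ^ (Nat.card G / p) = 1
      · rw [h1]; exact one_mem _
      · refine Subgroup.subset_closure (orderOf_eq_prime ?_ h1)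
        rw [← pow_mul, Nat.div_mul_cancel hdiv, pow_card_eq_one']
    have hco : Nat.gcd (Nat.card G / p) p = 1 := by
      refine Nat.Coprime.symm (hp.out.coprime_iff_not_dvd.2 fun h => hsq ?_)
      rw [sq]
      exact (Nat.dvd_div_iff_mul_dvd hdiv).1 h
    have hb := Nat.gcd_eq_gcd_ab (Nat.card G / p) p
    rw [hco, Nat.cast_one] at hb
    set mG := Nat.card G / p
    refine ⟨(c ^ mG) ^ Nat.gcdA mG p, N.zpow_mem hn _, (c ^ p) ^ Nat.gcdB mG p,
      Subgroup.zpow_mem _ hz _, ?_⟩
    rw [← zpow_natCast c mG, ← zpow_natCast c p, ← zpow_mul, ← zpow_mul, ← zpow_add, ← hb, zpow_one]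
  have hPxG : (P : Subgroup G) = Subgroup.zpowers x := by
    refine (Subgroup.eq_of_le_of_card_ge (Subgroup.zpowers_le.2 ?_) ?_).symm
    · have h : xN ∈ ((P.subtype hPle : Sylow p N) : Subgroup N) := by
        rw [hPx]; exact Subgroup.mem_zpowers _
      exact h
    · rw [Nat.card_zpowers, hx]
      exact le_of_eq hP
  have hprod : ∀ g : G, ∃ n ∈ N, ∃ z ∈ Subgroup.center G, g = n * z := by
    intro g
    -- move the conjugate of `x` back inside `N`
    have hy : orderOf (g * x * g⁻¹) = p := by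
      have h1 := (MulAut.conj g).orderOf_eq x
      rw [MulAut.conj_apply] at h1
      rw [h1, hx]
    obtain ⟨a', ha'⟩ := hconj ⟨g * x * g⁻¹, Subgroup.subset_closure hy⟩ hy
    obtain ⟨j, hj⟩ := mem_powers_iff_mem_zpowers.2 ha'
    have hj' : x ^ j = ((a' : G) * g) * x * ((a' : G) * g)⁻¹ := by
      have h : x ^ j = (a' : G) * (g * x * g⁻¹) * (a' : G)⁻¹ := congrArg Subtype.val hj
      rw [h]; group
    have hcx : IsConj (x ^ j) x :=
      isConj_iff.2 ⟨((a' : G) * g)⁻¹, by rw [hj']; group⟩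
    have hmain : ∀ b' : G, b' ∈ N → (b' * ((a' : G) * g)) * x * (b' * ((a' : G) * g))⁻¹ = x →
        ∃ n ∈ N, ∃ z ∈ Subgroup.center G, g = n * z := by
      intro b' hb' hfix
      obtain ⟨n, hn, z, hz, hnz⟩ := hcentr (b' * ((a' : G) * g))
        (Subgroup.mem_centralizer_singleton_iff.2 (mul_inv_eq_iff_eq_mul.1 hfix))
      refine ⟨(a' : G)⁻¹ * b'⁻¹ * n, N.mul_mem (N.mul_mem (N.inv_mem a'.2) (N.inv_mem hb')) hn,
        z, hz, ?_⟩
      rw [mul_assoc _ n z, ← hnz]; group
    rcases hfus j hcx with e' | e'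
    · refine hmain 1 (one_mem _) ?_
      rw [one_mul, ← hj', show x ^ j = x ^ 1 from SG.pow_eq_pow_iff'.2 (by rw [e', Nat.cast_one]),
        pow_one]
    · refine hmain (u : G) u.2 ?_
      have hinv : x ^ j = x⁻¹ := by
        refine eq_inv_of_mul_eq_one_left ?_
        rw [← pow_succ, show x ^ (j + 1) = x ^ 0 from SG.pow_eq_pow_iff'.2 (by
          rw [Nat.cast_succ, e', neg_add_cancel, Nat.cast_zero]), pow_zero]
      have hu2 : (u : G) * x⁻¹ * (u : G)⁻¹ = x := by
        have h1 : (u : G) * (u : G) = 1 := congrArg Subtype.val huu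
        have h2 : (u : G) * x * (u : G) = x⁻¹ := congrArg Subtype.val hux
        rw [← h2, inv_eq_of_mul_eq_one_right h1]
        simp only [← mul_assoc, h1, one_mul]
        rw [mul_assoc, h1, mul_one]
      rw [mul_inv_rev, show (u : G) * ((a' : G) * g) * x * (((a' : G) * g)⁻¹ * (u : G)⁻¹) =
        (u : G) * (((a' : G) * g) * x * ((a' : G) * g)⁻¹) * (u : G)⁻¹ by group, ← hj', hinv, hu2]
  have hdisj : ∀ n : N, (n : G) ∈ Subgroup.center G → n = 1 := fun n hn => by
    have h : n ∈ Subgroup.center N := Subgroup.mem_center_iff.2 fun y =>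
      Subtype.ext (Subgroup.mem_center_iff.1 hn y)
    rwa [hZ, Subgroup.mem_bot] at h
  let f : N × Subgroup.center G →* G :=
    { toFun := fun v => (v.1 : G) * (v.2 : G)
      map_one' := by simp
      map_mul' := fun v w => by
        simp only [Prod.fst_mul, Prod.snd_mul, Subgroup.coe_mul]
        rw [mul_assoc (v.1 : G) (w.1 : G), ← mul_assoc (w.1 : G) (v.2 : G) (w.2 : G),
          Subgroup.mem_center_iff.1 v.2.2 (w.1 : G)]
        group }
  have hbij : Function.Bijective f := by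
    refine ⟨(injective_iff_map_eq_one f).2 fun v hv => ?_, fun g => ?_⟩
    · have hv' : (v.1 : G) * (v.2 : G) = 1 := hv
      have h1 : v.1 = 1 := hdisj _ (by
        rw [eq_inv_of_mul_eq_one_left hv']; exact Subgroup.inv_mem _ v.2.2)
      refine Prod.ext h1 (Subtype.ext ?_)
      rw [h1, OneMemClass.coe_one, one_mul] at hv'
      exact hv'
    · obtain ⟨n, hn, z, hz, rfl⟩ := hprod g
      exact ⟨(⟨n, hn⟩, ⟨z, hz⟩), rfl⟩
  exact ⟨(MulEquiv.ofBijective f hbij).symm.trans (e.prodCongr (MulEquiv.refl _))⟩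

end Cfsg.Agent.Blocks.DegreePMinusTwo
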