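import Cfsg.Agent.Blocks.DegreePMinusTwo.Local
import Cfsg.Agent.Blocks.TwoPrimeOrder.Tools
import Cfsg.Agent.Blocks.HalfDegree.Main
import Cfsg.Agent.Chars2.SmallDegree
import Mathlib.RingTheory.IntegralDomain

/-!
A perfect group with a faithful irreducible character of degree `p - 2`: the characters over a
character of the centre along the powers of `x`.
-/

set_option autoImplicit false
set_option linter.unusedSectionVars false
set_option linter.style.haveILetI false

namespace Cfsg.Agent.Blocks.DegreePMinusTwo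

open Cfsg Cfsg.Agent Cfsg.Agent.Blocks Cfsg.Agent.BlockChar Cfsg.Agent.Chars2.Cyc Function
  Screen.BrauerP
open scoped ComplexConjugate

universe u

variable {G : Type u} [Group G] [Fintype G]

/-- The hypotheses. -/
structure Core (M : Ideal AlgInt) (p m K : ℕ) (x : G) (σ : ℂ ≃+* ℂ) (H : Subgroup G)
    (φ : IrrCharacter G) : Prop where
  S : Once M p m K x σ H
  hp5 : 5 < p
  hdeg : charDegree (φ : G → ℂ) + 2 = p
  hfaith : ∀ g, (φ : G → ℂ) g = (φ : G → ℂ) 1 → g = 1
  hperf : commutator G = ⊤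
  hns : ‖(φ : G → ℂ) x‖ ≠ charDegree (φ : G → ℂ)

/-- The scalar of an irreducible character on the centre. -/
noncomputable def lam (χ : IrrCharacter G) : Subgroup.center G →* ℂ where
  toFun z := (χ : G → ℂ) (z : G) / (χ : G → ℂ) 1
  map_one' := by
    simp only [OneMemClass.coe_one]
    exact div_self (Chars.irr_apply_one_ne_zero χ.2)
  map_mul' a b := by
    simp only [Subgroup.coe_mul, Chars2.central_mul χ.2 a.2]
    have := Chars.irr_apply_one_ne_zero χ.2
    field_simp

theorem apply_mul_center (χ : IrrCharacter G) (g : G) (z : Subgroup.center G) :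
    (χ : G → ℂ) (g * z) = lam χ z * (χ : G → ℂ) g := by
  rw [Subgroup.mem_center_iff.1 z.2 g, Chars2.central_mul χ.2 z.2]
  show _ = (χ : G → ℂ) (z : G) / (χ : G → ℂ) 1 * (χ : G → ℂ) g
  ring

theorem lam_one (z : Subgroup.center G) : lam (oneChar G) z = 1 := by
  show ((oneChar G : IrrCharacter G) : G → ℂ) (z : G) / _ = 1
  simp [coe_oneChar]

open scoped Classical in
/-- The characters with the same scalars on the centre as `ψ`. -/
noncomputable def sector (ψ : IrrCharacter G) : Finset (IrrCharacter G) :=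
  Finset.univ.filter fun χ => lam χ = lam ψ

theorem mem_sector {ψ χ : IrrCharacter G} : χ ∈ sector ψ ↔ lam χ = lam ψ := by
  classical
  simp [sector]

theorem self_mem_sector (ψ : IrrCharacter G) : ψ ∈ sector ψ := mem_sector.2 rfl

open scoped Classical in
/-- A sum over a sector by the orthogonality on the centre. -/
theorem sector_sum (ψ : IrrCharacter G) (F : IrrCharacter G → ℂ) :
    (Nat.card (Subgroup.center G) : ℂ) * ∑ χ ∈ sector ψ, F χ =
      ∑ z : Subgroup.center G, lam ψ z⁻¹ * ∑ χ, F χ * lam χ z := by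
  classical
  have horth : ∀ χ : IrrCharacter G, ∑ z : Subgroup.center G, lam χ z * lam ψ z⁻¹ =
      if lam χ = lam ψ then (Nat.card (Subgroup.center G) : ℂ) else 0 := by
    intro χ
    let f : Subgroup.center G →* ℂ :=
      { toFun := fun z => lam χ z * lam ψ z⁻¹
        map_one' := by simp
        map_mul' := fun a b => by
          simp only [map_mul, mul_inv_rev]
          ring }
    have hf : f = 1 ↔ lam χ = lam ψ := by
      constructor
      · intro h
        refine MonoidHom.ext fun z => ?_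
        have h1 : lam χ z * lam ψ z⁻¹ = 1 := DFunLike.congr_fun h z
        have h2 : lam ψ z⁻¹ * lam ψ z = 1 := by rw [← map_mul, inv_mul_cancel, map_one]
        calc lam χ z = lam χ z * (lam ψ z⁻¹ * lam ψ z) := by rw [h2, mul_one]
          _ = lam ψ z := by rw [← mul_assoc, h1, one_mul]
      · intro h
        refine MonoidHom.ext fun z => ?_
        show lam χ z * lam ψ z⁻¹ = 1
        rw [h, ← map_mul, mul_inv_cancel, map_one]
    have h := sum_hom_units f
    rw [Nat.card_eq_fintype_card]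
    by_cases hc : lam χ = lam ψ
    · rw [if_pos hc]
      rw [if_pos (hf.2 hc)] at h
      exact h
    · rw [if_neg hc]
      rw [if_neg fun h' => hc (hf.1 h'), Nat.cast_zero] at h
      exact h
  simp only [Finset.mul_sum]
  rw [Finset.sum_comm, sector, Finset.sum_filter]
  refine Finset.sum_congr rfl fun χ _ => ?_
  rw [Finset.sum_congr rfl (g := fun z : Subgroup.center G => F χ * (lam χ z * lam ψ z⁻¹)) fun z _ => by
    ring, ← Finset.mul_sum, horth]
  split_ifs <;> ring

variable {p m K : ℕ} [hp : Fact p.Prime] {M : Ideal AlgInt} [M.IsMaximal] {x : G}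
  {σ : ℂ ≃+* ℂ} {H : Subgroup G} [Fintype H] {φ : IrrCharacter G}

namespace Core

theorem n_pos (D : Core M p m K x σ H φ) : 0 < p - 2 := by have := D.hp5; omega

theorem p_odd (D : Core M p m K x σ H φ) : Odd p :=
  hp.out.odd_of_ne_two (by have := D.hp5; omega)

theorem phi_one (D : Core M p m K x σ H φ) : (φ : G → ℂ) 1 = ((p - 2 : ℕ) : ℂ) := by
  rw [apply_one_eq_deg, show charDegree (φ : G → ℂ) = p - 2 by have := D.hdeg; omega]

theorem natAbs_n (D : Core M p m K x σ H φ) : ‖(φ : G → ℂ) 1‖ = charDegree (φ : G → ℂ) := by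
  rw [apply_one_eq_deg, Complex.norm_natCast]

/-- The regular elements of the centralizer are central. -/
theorem mem_center_of_regular (D : Core M p m K x σ H φ) (c : H) (hc : ¬ p ∣ orderOf c) :
    (c : G) ∈ Subgroup.center G := by
  obtain ⟨a, -, -, -, h, -⟩ := local_shape D.S D.hdeg D.hns
  exact HalfDegree.mem_center_of_norm (Chars.irr_isCharacter φ) D.hfaith
    ((h c hc).trans D.natAbs_n.symm)

theorem not_mem_center (D : Core M p m K x σ H φ) : x ∉ Subgroup.center G := fun hx => by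
  obtain ⟨w, hw, hwv⟩ := HalfDegree.exists_scalar φ.2 hx
  refine D.hns ?_
  have h := hwv 1
  rw [one_mul] at h
  rw [h, norm_mul, hw, one_mul, D.natAbs_n]

theorem not_dvd_center (D : Core M p m K x σ H φ) {z : G} (hz : z ∈ Subgroup.center G) :
    ¬ p ∣ orderOf z := fun h => by
  have hu := orderOf_pow_orderOf_div (orderOf_pos z).ne' h
  set u := z ^ (orderOf z / p)
  have huc : u ∈ Subgroup.center G := Subgroup.pow_mem _ hz _
  obtain ⟨a, ha⟩ := D.S.exists_conj_of_order hu
  rw [Subgroup.mem_center_iff.1 huc a, mul_inv_cancel_right] at ha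
  have hc : Subgroup.zpowers u = Subgroup.zpowers x := by
    refine Subgroup.eq_of_le_of_card_ge (Subgroup.zpowers_le.2 ha) ?_
    rw [Nat.card_zpowers, Nat.card_zpowers, hu, D.S.hx]
  exact D.not_mem_center ((Subgroup.zpowers_le.2 huc) (hc ▸ Subgroup.mem_zpowers x))

theorem center_le (D : Core M p m K x σ H φ) : Subgroup.center G ≤ H := fun z hz => by
  rw [D.S.hH, Subgroup.mem_centralizer_singleton_iff]
  exact (Subgroup.mem_center_iff.1 hz x).symm

/-- The centre has no involution. -/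
theorem eq_one_of_sq (D : Core M p m K x σ H φ) {z : G} (hz : z ∈ Subgroup.center G)
    (h2 : z * z = 1) : z = 1 := by
  obtain ⟨w, -, hw⟩ := HalfDegree.exists_scalar φ.2 hz
  obtain ⟨β, hβ⟩ := TwoPrimeOrder.involution_mod_four D.hperf φ h2 D.phi_one
  have h1 := hw 1
  rw [one_mul] at h1
  have h3 := hw z
  rw [h2, h1, ← mul_assoc] at h3
  have hne := Chars.irr_apply_one_ne_zero φ.2
  have hw2 : w * w = 1 := (mul_eq_right₀ hne).1 h3.symm
  rcases mul_self_eq_one_iff.1 hw2 with e | e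
  · exact D.hfaith z (by rw [h1, e, one_mul])
  · exfalso
    rw [h1, e, D.phi_one] at hβ
    have h4 : (((p - 2) * 2 : ℕ) : ℂ) = ((4 * β : ℕ) : ℂ) := by
      push_cast; linear_combination -hβ
    have h5 : (p - 2) * 2 = 4 * β := by exact_mod_cast h4
    obtain ⟨k, hk⟩ := D.p_odd
    have := D.hp5
    omega

/-- An involution inverting `x`. -/
theorem exists_inverting (D : Core M p m K x σ H φ) :
    ∃ u : G, u * u = 1 ∧ u ≠ 1 ∧ u * x * u = x⁻¹ := by
  classical
  obtain ⟨a, ha, -, -, -, hfus⟩ := local_shape D.S D.hdeg D.hns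
  obtain ⟨g, hg⟩ : ∃ g : G, g * x * g⁻¹ = x⁻¹ := by
    by_contra hno
    push Not at hno
    refine D.hns (scalar_of_no_fusion D.S (fun k hk => ?_) D.hdeg.le)
    rcases hfus k hk with h | h
    · rw [show x ^ k = x ^ 1 from D.S.pow_eq_pow_iff'.2 (by rw [h, Nat.cast_one]), pow_one]
    · exfalso
      have hinv : x ^ k = x⁻¹ := by
        refine eq_inv_of_mul_eq_one_left ?_
        rw [← pow_succ, show x ^ (k + 1) = x ^ 0 from D.S.pow_eq_pow_iff'.2 (by
          rw [Nat.cast_succ, h, neg_add_cancel, Nat.cast_zero]), pow_zero]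
      rw [hinv] at hk
      obtain ⟨c, hc⟩ := isConj_iff.1 hk.symm
      exact hno c hc
  have hxne : x ≠ x⁻¹ := fun h => by
    have h1 : orderOf x ∣ 2 := orderOf_dvd_of_pow_eq_one (by
      rw [sq]; nth_rewrite 2 [h]; rw [mul_inv_cancel])
    rw [D.S.hx] at h1
    have := Nat.le_of_dvd two_pos h1
    have := D.hp5
    omega
  have hgH : g ∉ H := fun h => hxne (by
    have h1 : Commute x g := D.S.comm ⟨g, h⟩
    rw [← hg, ← h1.eq, mul_inv_cancel_right])
  have hgx : g * x⁻¹ * g⁻¹ = x := by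
    rw [← conj_inv, hg, inv_inv]
  have hg2 : g ^ 2 ∈ H := by
    rw [D.S.hH, Subgroup.mem_centralizer_singleton_iff, sq]
    calc g * g * x = g * (g * x * g⁻¹) * g := by group
      _ = g * x⁻¹ * g⁻¹ * (g * g) := by rw [hg]; group
      _ = _ := by rw [hgx]
  set n := orderOf g with hn
  have h2 : 2 ∣ n := by
    by_contra hodd
    refine hgH ?_
    obtain ⟨k, hk⟩ : ∃ k, n = 2 * k + 1 := ⟨n / 2, by omega⟩
    have h3 : g = (g ^ 2) ^ (k + 1) := by
      rw [← pow_mul, show 2 * (k + 1) = n + 1 by omega, pow_succ, hn, pow_orderOf_eq_one, one_mul]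
    rw [h3]
    exact H.pow_mem hg2 _
  obtain ⟨r, hr⟩ := h2
  set u := g ^ r with hu
  have huu : u * u = 1 := by rw [hu, ← pow_add, ← two_mul, ← hr, hn, pow_orderOf_eq_one]
  have hu1 : u ≠ 1 := fun h => by
    have h3 : n ∣ r := orderOf_dvd_of_pow_eq_one h
    have hnpos : 0 < n := orderOf_pos g
    have := Nat.le_of_dvd (by omega) h3
    omega
  refine ⟨u, huu, hu1, ?_⟩
  rcases Nat.even_or_odd r with ⟨k, hk⟩ | ⟨k, hk⟩
  · exfalso
    have huH : u ∈ H := by rw [hu, hk, ← two_mul, pow_mul]; exact H.pow_mem hg2 _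
    have ho : orderOf u = 2 := orderOf_eq_prime (by rw [sq, huu]) hu1
    refine hu1 (D.eq_one_of_sq (D.mem_center_of_regular ⟨u, huH⟩ ?_) huu)
    rw [← Subgroup.orderOf_coe]
    show ¬ p ∣ orderOf u
    rw [ho]
    intro h
    have := Nat.le_of_dvd two_pos h
    have := D.hp5
    omega
  · have hc : Commute x ((g ^ 2) ^ k) := D.S.comm ⟨_, H.pow_mem hg2 k⟩
    have e : u = g * (g ^ 2) ^ k := by rw [hu, hk, pow_succ', pow_mul]
    have hui : u⁻¹ = u := inv_eq_of_mul_eq_one_right huu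
    calc u * x * u = u * x * u⁻¹ := by rw [hui]
      _ = g * ((g ^ 2) ^ k * x * ((g ^ 2) ^ k)⁻¹) * g⁻¹ := by rw [e]; group
      _ = g * x * g⁻¹ := by rw [← hc.eq, mul_inv_cancel_right]
      _ = x⁻¹ := hg

/-- Which powers of `x` are conjugate. -/
theorem conj_pow_iff (D : Core M p m K x σ H φ) {i j : ℕ} (hj : (j : ZMod p) ≠ 0) :
    IsConj (x ^ i) (x ^ j) ↔ (i : ZMod p) = j ∨ (i : ZMod p) = -(j : ZMod p) := by
  classical
  obtain ⟨a, ha, -, -, -, hfus⟩ := local_shape D.S D.hdeg D.hns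
  constructor
  · intro h
    set l := ((j : ZMod p)⁻¹).val with hl
    have h1 := h.pow l
    rw [← pow_mul, ← pow_mul, show x ^ (j * l) = x ^ 1 from D.S.pow_eq_pow_iff'.2 (by
      rw [Nat.cast_mul, hl, ZMod.natCast_rightInverse, mul_inv_cancel₀ hj, Nat.cast_one]),
      pow_one] at h1
    have h2 : ((i * l : ℕ) : ZMod p) * (j : ZMod p) = (i : ZMod p) := by
      rw [Nat.cast_mul, hl, ZMod.natCast_rightInverse, mul_assoc, inv_mul_cancel₀ hj, mul_one]
    rcases hfus _ h1 with e | e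
    · left; rw [← h2, e, one_mul]
    · right; rw [← h2, e, neg_one_mul]
  · rintro (h | h)
    · rw [D.S.pow_eq_pow_iff'.2 h]
    · obtain ⟨u, huu, -, hux⟩ := D.exists_inverting
      refine isConj_iff.2 ⟨u, ?_⟩
      rw [← conj_pow, inv_eq_of_mul_eq_one_right huu, hux, inv_pow]
      refine inv_eq_of_mul_eq_one_right ?_
      rw [← pow_add, show x ^ (i + j) = x ^ 0 from D.S.pow_eq_pow_iff'.2 (by
        rw [Nat.cast_add, h, neg_add_cancel, Nat.cast_zero]), pow_zero]

theorem orderOf_pow_eq (D : Core M p m K x σ H φ) {i : ℕ} (hi : (i : ZMod p) ≠ 0) :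
    orderOf (x ^ i) = p := by
  refine orderOf_eq_prime (by rw [← pow_mul, mul_comm, pow_mul, ← D.S.hx, pow_orderOf_eq_one,
    one_pow]) fun h => hi ?_
  rw [← Nat.cast_zero]
  exact D.S.pow_eq_pow_iff'.1 (by rw [pow_zero]; exact h)

theorem mem_zpowers_of_commute (D : Core M p m K x σ H φ) {y : G} (hy : orderOf y = p)
    (hc : Commute x y) : y ∈ Subgroup.zpowers x := by
  have h1 : IsPGroup p (Subgroup.zpowers y) :=
    IsPGroup.of_card (n := 1) (by rw [Nat.card_zpowers, hy, pow_one])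
  have h2 : IsPGroup p (Subgroup.zpowers x) :=
    IsPGroup.of_card (n := 1) (by rw [Nat.card_zpowers, D.S.hx, pow_one])
  have hn : Subgroup.zpowers y ≤
      Subgroup.normalizer ((Subgroup.zpowers x : Subgroup G) : Set G) := by
    refine le_trans ?_ (Subgroup.centralizer_le_normalizer _)
    rw [Subgroup.zpowers_le, D.S.centralizer_zpowers, D.S.hH,
      Subgroup.mem_centralizer_singleton_iff]
    exact hc.symm
  obtain ⟨k, hk⟩ := IsPGroup.iff_card.1 (IsPGroup.to_sup_of_normal_right' h1 h2 hn)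
  have hk1 : k ≤ 1 := by
    by_contra hlt
    have h3 : p ^ 2 ∣ Nat.card G :=
      ((pow_dvd_pow p (by omega)).trans (dvd_of_eq hk.symm)).trans (Subgroup.card_subgroup_dvd_card _)
    rw [D.S.card, sq] at h3
    exact D.S.hm (Nat.dvd_of_mul_dvd_mul_left hp.out.pos h3)
  have he : Subgroup.zpowers x = Subgroup.zpowers y ⊔ Subgroup.zpowers x := by
    refine Subgroup.eq_of_le_of_card_ge le_sup_right ?_
    rw [hk, Nat.card_zpowers, D.S.hx]
    exact (Nat.pow_le_pow_right hp.out.pos hk1).trans (pow_one p).le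
  rw [he]
  exact (le_sup_left : _ ≤ Subgroup.zpowers y ⊔ Subgroup.zpowers x) (Subgroup.mem_zpowers y)

/-- An element of order `p` times a central element determines both. -/
theorem mul_center_inj (D : Core M p m K x σ H φ) {a b : G} {z w : G} (ha : a ^ p = 1)
    (hb : b ^ p = 1) (hz : z ∈ Subgroup.center G) (hw : w ∈ Subgroup.center G)
    (h : a * z = b * w) : a = b ∧ z = w := by
  have hz' := Subgroup.mem_center_iff.1 hz
  have hw' := Subgroup.mem_center_iff.1 hw
  have h1 : z ^ p = w ^ p := by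
    have h2 : (a * z) ^ p = (b * w) ^ p := by rw [h]
    rw [Commute.mul_pow (hz' a), Commute.mul_pow (hw' b), ha, hb, one_mul, one_mul] at h2
    exact h2
  have hcomm : Commute z w⁻¹ := (hz' w⁻¹).symm
  have hq : (z * w⁻¹) ^ p = 1 := by rw [hcomm.mul_pow, inv_pow, h1, mul_inv_cancel]
  have hzw : z = w := by
    rw [← mul_inv_eq_one]
    by_contra hne
    have h3 := orderOf_eq_prime hq hne
    exact D.not_dvd_center (Subgroup.mul_mem _ hz (Subgroup.inv_mem _ hw)) (h3.symm ▸ dvd_rfl)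
  subst hzw
  exact ⟨mul_right_cancel h, rfl⟩

/-- The centralizer of `x` is its powers times the centre. -/
theorem card_H (D : Core M p m K x σ H φ) :
    Nat.card H = p * Nat.card (Subgroup.center G) := by
  classical
  have hxp : x ^ p = 1 := by rw [← D.S.hx, pow_orderOf_eq_one]
  have hpw : ∀ v ∈ Subgroup.zpowers x, v ^ p = 1 := by
    rintro v ⟨i, rfl⟩
    show (x ^ i) ^ p = 1
    rw [← zpow_natCast (x ^ i) p, ← zpow_mul, mul_comm, zpow_mul, zpow_natCast, hxp, one_zpow]
  let f : Subgroup.zpowers x × Subgroup.center G → H := fun vz =>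
    ⟨(vz.1 : G) * vz.2, H.mul_mem ((Subgroup.zpowers_le.2 D.S.mem) vz.1.2) (D.center_le vz.2.2)⟩
  have hbij : Function.Bijective f := by
    refine ⟨fun a b h => ?_, fun c => ?_⟩
    · obtain ⟨h1, h2⟩ := D.mul_center_inj (hpw _ a.1.2) (hpw _ b.1.2) a.2.2 b.2.2
        (congrArg Subtype.val h)
      exact Prod.ext (Subtype.ext h1) (Subtype.ext h2)
    · by_cases hc : p ∣ orderOf (c : G)
      · obtain ⟨a, j, s, hs, he⟩ := D.S.exists_singular_form hc
        have hz := D.mem_center_of_regular s hs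
        set y := a * x ^ K ^ j * a⁻¹ with hy
        have hye : (c : G) = y * s := by
          rw [he, hy, mul_assoc, mul_assoc, ← mul_assoc (x ^ K ^ j) (s : G) a⁻¹,
            mul_assoc (a * x ^ K ^ j) a⁻¹ (s : G), Subgroup.mem_center_iff.1 hz a⁻¹]
          group
        have hord : orderOf y = p := by
          have h1 := (MulAut.conj a).orderOf_eq (x ^ K ^ j)
          rw [MulAut.conj_apply] at h1
          rw [hy, h1]
          exact orderOf_eq_prime (by rw [← pow_mul, mul_comm, pow_mul, hxp, one_pow])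
            (D.S.pow_ne_one j)
        have hcomm : Commute x y := by
          have : y = (c : G) * (s : G)⁻¹ := by rw [hye, mul_inv_cancel_right]
          rw [this]
          exact (D.S.comm c).mul_right (Subgroup.mem_center_iff.1 (Subgroup.inv_mem _ hz) x)
        exact ⟨(⟨y, D.mem_zpowers_of_commute hord hcomm⟩, ⟨s, hz⟩), Subtype.ext hye.symm⟩
      · exact ⟨(1, ⟨c, D.mem_center_of_regular c (by rwa [← Subgroup.orderOf_coe])⟩),
          Subtype.ext (one_mul _)⟩
  rw [← Nat.card_congr (Equiv.ofBijective f hbij), Nat.card_prod, Nat.card_zpowers, D.S.hx]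

theorem centralizer_pow (D : Core M p m K x σ H φ) {i : ℕ} (hi : (i : ZMod p) ≠ 0) :
    Subgroup.centralizer ({x ^ i} : Set G) = H := by
  have hzp : Subgroup.zpowers (x ^ i) = Subgroup.zpowers x := by
    refine Subgroup.eq_of_le_of_card_ge
      (Subgroup.zpowers_le.2 (Subgroup.pow_mem _ (Subgroup.mem_zpowers x) _)) ?_
    rw [Nat.card_zpowers, Nat.card_zpowers, D.orderOf_pow_eq hi, D.S.hx]
  rw [D.S.hH]
  ext g
  simp only [Subgroup.mem_centralizer_singleton_iff]
  constructor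
  · intro h
    have hx : x ∈ Subgroup.zpowers (x ^ i) := hzp ▸ Subgroup.mem_zpowers x
    obtain ⟨l, hl⟩ := hx
    rw [← hl]
    exact ((show Commute g (x ^ i) from h).zpow_right l).eq
  · intro h
    exact ((show Commute g x from h).pow_right i).eq

/-- The orthogonality of the columns of a sector at the powers of `x`. -/
theorem gram (D : Core M p m K x σ H φ) (ψ : IrrCharacter G) {i j : ℕ} (hi : (i : ZMod p) ≠ 0)
    (hj : (j : ZMod p) ≠ 0) :
    ∑ χ ∈ sector ψ, (χ : G → ℂ) (x ^ i) * conj ((χ : G → ℂ) (x ^ j)) =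
      if (i : ZMod p) = j ∨ (i : ZMod p) = -(j : ZMod p) then (p : ℂ) else 0 := by
  classical
  refine mul_left_cancel₀
    (Nat.cast_ne_zero.2 Nat.card_pos.ne' : (Nat.card (Subgroup.center G) : ℂ) ≠ 0) ?_
  rw [sector_sum, Finset.sum_eq_single (1 : Subgroup.center G)]
  · simp only [inv_one, map_one, one_mul, mul_one]
    rw [Chars.column_orth]
    by_cases h : (i : ZMod p) = j ∨ (i : ZMod p) = -(j : ZMod p)
    · rw [if_pos ((D.conj_pow_iff hj).2 h), if_pos h, D.centralizer_pow hi, D.card_H, Nat.cast_mul,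
        mul_comm]
    · rw [if_neg fun hc => h ((D.conj_pow_iff hj).1 hc), if_neg h, mul_zero]
  · intro z _ hz
    have h0 : ∑ χ : IrrCharacter G, (χ : G → ℂ) (x ^ i) * conj ((χ : G → ℂ) (x ^ j)) * lam χ z = 0 := by
      rw [Finset.sum_congr rfl (g := fun χ : IrrCharacter G => (χ : G → ℂ) (x ^ i * z) *
        conj ((χ : G → ℂ) (x ^ j))) fun χ _ => by rw [apply_mul_center]; ring, Chars.column_orth,
        if_neg]
      intro hc
      obtain ⟨c, hc⟩ := isConj_iff.1 hc
      have e1 : c * x ^ i * c⁻¹ * (z : G) = x ^ j * 1 := by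
        rw [mul_one, ← hc, mul_assoc (c * x ^ i), Subgroup.mem_center_iff.1 z.2 c⁻¹]
        group
      have hxp : x ^ p = 1 := by rw [← D.S.hx, pow_orderOf_eq_one]
      have := (D.mul_center_inj (by rw [conj_pow, ← pow_mul, mul_comm, pow_mul, hxp, one_pow,
          mul_one, mul_inv_cancel])
        (by rw [← pow_mul, mul_comm, pow_mul, hxp, one_pow]) z.2 (one_mem _) e1).2
      exact hz (Subtype.ext this)
    rw [h0, mul_zero]
  · exact fun h => absurd (Finset.mem_univ _) h

/-- The orthogonality of a regular column and the column at `x` in a sector. -/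
theorem regular_orth (D : Core M p m K x σ H φ) (ψ : IrrCharacter G) {g : G}
    (hg : ¬ p ∣ orderOf g) :
    ∑ χ ∈ sector ψ, (χ : G → ℂ) g * conj ((χ : G → ℂ) x) = 0 := by
  classical
  refine mul_left_cancel₀
    (Nat.cast_ne_zero.2 Nat.card_pos.ne' : (Nat.card (Subgroup.center G) : ℂ) ≠ 0) ?_
  rw [sector_sum, mul_zero, Finset.sum_eq_zero fun z _ => ?_]
  rw [Finset.sum_congr rfl (g := fun χ : IrrCharacter G => (χ : G → ℂ) (g * z) *
    conj ((χ : G → ℂ) x)) fun χ _ => by rw [apply_mul_center]; ring, Chars.column_orth, if_neg,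
    mul_zero]
  intro hc
  have ho : orderOf (g * (z : G)) = p := by
    obtain ⟨c, hc⟩ := isConj_iff.1 hc
    have h1 := (MulAut.conj c).orderOf_eq (g * (z : G))
    rw [MulAut.conj_apply, hc, D.S.hx] at h1
    exact h1.symm
  have hcz : Commute g (z : G) := Subgroup.mem_center_iff.1 z.2 g
  have h2 := hcz.orderOf_mul_dvd_lcm
  rw [ho] at h2
  have h3 : p ∣ orderOf g * orderOf (z : G) := h2.trans (Nat.lcm_dvd_mul _ _)
  rcases hp.out.dvd_mul.1 h3 with h | h
  · exact hg h
  · exact D.not_dvd_center z.2 h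

theorem zmod_val_ne (k : ZMod p) (hk : k ≠ 0) : ((k.val : ℕ) : ZMod p) ≠ 0 := by
  rwa [ZMod.natCast_rightInverse]

open scoped Classical in
/-- The Galois conjugates of `φ`. -/
noncomputable def fam (_D : Core M p m K x σ H φ) : Finset (IrrCharacter G) :=
  (Finset.range ((p - 1) / 2)).image fun r => (gal σ)^[r] φ

theorem K_half (D : Core M p m K x σ H φ) :
    ((K : ℕ) : ZMod p) ^ ((p - 1) / 2) = -1 := by
  have ht : (p - 1) / 2 * 2 = p - 1 := by obtain ⟨k, hk⟩ := D.p_odd; omega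
  have h1 : (((K : ℕ) : ZMod p) ^ ((p - 1) / 2)) ^ 2 = 1 := by rw [← pow_mul, ht, D.S.hKpow]
  refine (sq_eq_one_iff.1 h1).resolve_left fun h2 => ?_
  have h3 := orderOf_dvd_of_pow_eq_one h2
  rw [D.S.ord] at h3
  have := D.hp5
  have := Nat.le_of_dvd (by omega) h3
  omega

theorem K_pow_inj (D : Core M p m K x σ H φ) {r s : ℕ} (hr : r < p - 1) (hs : s < p - 1)
    (h : ((K : ℕ) : ZMod p) ^ r = ((K : ℕ) : ZMod p) ^ s) : r = s :=
  pow_injOn_Iio_orderOf (x := ((K : ℕ) : ZMod p)) (by rw [D.S.ord]; exact Set.mem_Iio.2 hr)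
    (by rw [D.S.ord]; exact Set.mem_Iio.2 hs) h

theorem gal_val (D : Core M p m K x σ H φ) (r j : ℕ) :
    ((gal σ)^[r] φ : G → ℂ) (x ^ j) = (φ : G → ℂ) (x ^ (j * K ^ r)) := by
  rw [D.S.gal_value, ← pow_mul]

/-- The multiplicities are symmetric. -/
theorem value_neg (D : Core M p m K x σ H φ) {i j : ℕ} (h : (i : ZMod p) = -(j : ZMod p)) :
    (φ : G → ℂ) (x ^ i) = (φ : G → ℂ) (x ^ j) := by
  obtain ⟨u, huu, -, hux⟩ := D.exists_inverting
  have e : x ^ i = (x ^ j)⁻¹ := by
    refine eq_inv_of_mul_eq_one_left ?_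
    rw [← pow_add, show x ^ (i + j) = x ^ 0 from D.S.pow_eq_pow_iff'.2 (by
      rw [Nat.cast_add, h, neg_add_cancel, Nat.cast_zero]), pow_zero]
  rw [e, ← inv_pow, ← hux, show u * x * u = u * x * u⁻¹ by rw [inv_eq_of_mul_eq_one_right huu],
    conj_pow, Chars.isClassFunction_irr φ (x ^ j) u]

theorem injOn_fam (D : Core M p m K x σ H φ) :
    Set.InjOn (fun r => (gal σ)^[r] φ) (Finset.range ((p - 1) / 2) : Set ℕ) := by
  classical
  have ht : (p - 1) / 2 * 2 = p - 1 := by obtain ⟨k, hk⟩ := D.p_odd; omega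
  obtain ⟨a, ha, heig, -, -, -⟩ := local_shape D.S D.hdeg D.hns
  intro r hr s hs he
  simp only [Finset.coe_range, Set.mem_Iio] at hr hs
  set k := ((K : ℕ) : ZMod p) ^ r * (((K : ℕ) : ZMod p) ^ s)⁻¹ with hk
  have hKs : ((K : ℕ) : ZMod p) ^ s ≠ 0 := pow_ne_zero _ D.S.K_ne_zero
  have hk0 : k ≠ 0 := mul_ne_zero (pow_ne_zero _ D.S.K_ne_zero) (inv_ne_zero hKs)
  have hinv := eig_invariant D.S (φ := φ) (k := k.val) (zmod_val_ne k hk0) (fun j => by
    set l := j * ((((K : ℕ) : ZMod p) ^ s)⁻¹).val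
    have h2 := congrArg (fun χ : IrrCharacter G => (χ : G → ℂ) (x ^ l)) he
    simp only [D.gal_val] at h2
    rw [show x ^ (j * k.val) = x ^ (l * K ^ r) from D.S.pow_eq_pow_iff'.2 (by
      simp only [l]
      rw [Nat.cast_mul, Nat.cast_mul, Nat.cast_mul, ZMod.natCast_rightInverse k,
        ZMod.natCast_rightInverse (((K : ℕ) : ZMod p) ^ s)⁻¹, Nat.cast_pow, hk]
      ring), h2,
      show x ^ (l * K ^ s) = x ^ j from D.S.pow_eq_pow_iff'.2 (by
      simp only [l]
      rw [Nat.cast_mul, Nat.cast_mul, ZMod.natCast_rightInverse (((K : ℕ) : ZMod p) ^ s)⁻¹,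
        Nat.cast_pow, mul_assoc, inv_mul_cancel₀ hKs, mul_one])]) a
  rw [ZMod.natCast_rightInverse, heig a, if_pos (Or.inl rfl), heig] at hinv
  have hmem : k * a = a ∨ k * a = -a := by
    by_contra h
    rw [if_neg h] at hinv
    exact one_ne_zero hinv
  have hk1 : k = 1 ∨ k = -1 := hmem.imp (fun h => mul_right_cancel₀ ha (h.trans (one_mul a).symm))
    (fun h => mul_right_cancel₀ ha (h.trans (neg_one_mul a).symm))
  rcases hk1 with e | e
  · rw [hk, mul_inv_eq_one₀ hKs] at e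
    exact D.K_pow_inj (by omega) (by omega) e
  · exfalso
    rw [hk, ← D.K_half, mul_inv_eq_iff_eq_mul₀ hKs, ← pow_add] at e
    have := D.K_pow_inj (by omega) (by omega) e
    omega

theorem card_fam (D : Core M p m K x σ H φ) : D.fam.card = (p - 1) / 2 := by
  classical
  rw [fam, Finset.card_image_of_injOn D.injOn_fam, Finset.card_range]

theorem fam_reg (D : Core M p m K x σ H φ) {χ : IrrCharacter G} (hχ : χ ∈ D.fam) {g : G}
    (hg : ¬ p ∣ orderOf g) : (χ : G → ℂ) g = (φ : G → ℂ) g := by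
  classical
  obtain ⟨r, -, rfl⟩ := Finset.mem_image.1 hχ
  exact D.S.gal_reg φ r hg

theorem fam_subset (D : Core M p m K x σ H φ) : D.fam ⊆ sector φ := by
  intro χ hχ
  refine mem_sector.2 (MonoidHom.ext fun z => ?_)
  show (χ : G → ℂ) (z : G) / (χ : G → ℂ) 1 = (φ : G → ℂ) (z : G) / (φ : G → ℂ) 1
  rw [D.fam_reg hχ (D.not_dvd_center z.2),
    D.fam_reg hχ (g := 1) (by rw [orderOf_one]; exact hp.out.not_dvd_one)]

/-- A sum over the family is half a sum over the nonzero residues. -/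
theorem sum_fam (D : Core M p m K x σ H φ) (f : IrrCharacter G → ℂ) (F : ZMod p → ℂ)
    (hF : ∀ r, r < (p - 1) / 2 → f ((gal σ)^[r] φ) = F (((K : ℕ) : ZMod p) ^ r))
    (hsym : ∀ u, F (-u) = F u) :
    2 * ∑ χ ∈ D.fam, f χ = ∑ u ∈ Finset.univ.erase (0 : ZMod p), F u := by
  classical
  set t := (p - 1) / 2 with htd
  have ht : t + t = p - 1 := by obtain ⟨k, hk⟩ := D.p_odd; omega
  have h1 : ∑ u ∈ Finset.univ.erase (0 : ZMod p), F u =
      ∑ r ∈ Finset.range (t + t), F (((K : ℕ) : ZMod p) ^ r) := by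
    symm
    refine Finset.sum_bij (fun r _ => ((K : ℕ) : ZMod p) ^ r) (fun r _ => ?_)
      (fun r hr r' hr' h => ?_) (fun i hi => ?_) fun r _ => rfl
    · exact Finset.mem_erase.2 ⟨pow_ne_zero r D.S.K_ne_zero, Finset.mem_univ _⟩
    · rw [Finset.mem_range, ht] at hr hr'
      exact D.K_pow_inj hr hr' h
    · obtain ⟨r, hr, hr'⟩ := D.S.exists_pow_K (Finset.mem_erase.1 hi).1
      exact ⟨r, Finset.mem_range.2 (ht ▸ hr), hr'⟩
  rw [h1, Finset.sum_range_add, fam, Finset.sum_image D.injOn_fam, two_mul]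
  congr 1
  · exact Finset.sum_congr rfl fun r hr => hF r (Finset.mem_range.1 hr)
  · refine Finset.sum_congr rfl fun r hr => ?_
    rw [pow_add, htd, D.K_half, neg_one_mul, hsym, hF r (Finset.mem_range.1 hr)]

theorem fam_gram (D : Core M p m K x σ H φ) {i j : ℕ} (hi : (i : ZMod p) ≠ 0)
    (hj : (j : ZMod p) ≠ 0) :
    ∑ χ ∈ D.fam, (χ : G → ℂ) (x ^ i) * conj ((χ : G → ℂ) (x ^ j)) =
      (if (i : ZMod p) = j ∨ (i : ZMod p) = -(j : ZMod p) then (p : ℂ) else 0) - 2 := by
  classical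
  obtain ⟨a, ha, heig, -, -, -⟩ := local_shape D.S D.hdeg D.hns
  set f : ℕ → ℂ := fun n => (φ : G → ℂ) (x ^ n) with hf
  have hmod : ∀ {s t : ℕ}, (s : ZMod p) = t → f s = f t := fun h => by
    show (φ : G → ℂ) _ = _
    rw [D.S.pow_eq_pow_iff'.2 h]
  have h := D.sum_fam (fun χ => (χ : G → ℂ) (x ^ i) * conj ((χ : G → ℂ) (x ^ j)))
    (fun u => f (i * u.val) * conj (f (j * u.val))) (fun r _ => by
      rw [D.gal_val, D.gal_val]
      show f (i * K ^ r) * conj (f (j * K ^ r)) = _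
      rw [hmod (show ((i * K ^ r : ℕ) : ZMod p) = ((i * (((K : ℕ) : ZMod p) ^ r).val : ℕ) : ZMod p) by
        simp [ZMod.natCast_rightInverse (((K : ℕ) : ZMod p) ^ r)]),
        hmod (show ((j * K ^ r : ℕ) : ZMod p) = ((j * (((K : ℕ) : ZMod p) ^ r).val : ℕ) : ZMod p) by
        simp [ZMod.natCast_rightInverse (((K : ℕ) : ZMod p) ^ r)])]) (fun u => by
      have e : ∀ l : ℕ, f (l * (-u).val) = f (l * u.val) := fun l => D.value_neg (by
        simp [ZMod.natCast_rightInverse u, ZMod.natCast_rightInverse (-u)])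
      simp only [e])
  set k := (i : ZMod p) * (j : ZMod p)⁻¹ with hk
  have h2 : ∑ u : ZMod p, f (i * u.val) * conj (f (j * u.val)) =
      ∑ w : ZMod p, f (w.val * k.val) * conj (f w.val) := by
    refine Fintype.sum_equiv (Equiv.mulLeft₀ (j : ZMod p) hj) _ _ fun u => ?_
    show _ = f (((j : ZMod p) * u).val * k.val) * conj (f ((j : ZMod p) * u).val)
    rw [hmod (show (((((j : ZMod p) * u).val * k.val : ℕ)) : ZMod p) = ((i * u.val : ℕ) : ZMod p) by
        simp only [Nat.cast_mul, ZMod.natCast_rightInverse _, hk]; field_simp),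
      hmod (show ((((j : ZMod p) * u).val : ℕ) : ZMod p) = ((j * u.val : ℕ) : ZMod p) by
        simp only [Nat.cast_mul, ZMod.natCast_rightInverse _])]
  have h3 := D.S.sum_values_mul φ k.val
  rw [ZMod.natCast_rightInverse k] at h3
  simp only [Finset.sum_ite_eq, Finset.mem_univ, if_true] at h3
  have hk0 : k ≠ 0 := mul_ne_zero hi (inv_ne_zero hj)
  have hcount : ((∑ i : ZMod p, D.S.eigMult φ i * D.S.eigMult φ (k * i) : ℕ) : ℂ) =
      if (i : ZMod p) = j ∨ (i : ZMod p) = -(j : ZMod p) then (p : ℂ) - 2 else (p : ℂ) - 4 := by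
    have hiff : ((i : ZMod p) = j ∨ (i : ZMod p) = -(j : ZMod p)) ↔ (k = 1 ∨ k = -1) := by
      simp only [hk, mul_inv_eq_iff_eq_mul₀ hj, one_mul, neg_mul]
    simp only [heig]
    set P : Finset (ZMod p) := {a, -a} with hP
    set Q : Finset (ZMod p) := {k⁻¹ * a, -(k⁻¹ * a)} with hQ
    have hne2 : ∀ b : ZMod p, b ≠ 0 → b ≠ -b := fun b hb hbb => by
      have h2 : (2 : ZMod p) * b = 0 := by rw [two_mul]; nth_rewrite 2 [hbb]; rw [add_neg_cancel]
      rcases mul_eq_zero.1 h2 with h4 | h4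
      · have h5 : ((2 : ℕ) : ZMod p) = 0 := by rw [Nat.cast_ofNat]; exact h4
        rw [ZMod.natCast_eq_zero_iff] at h5
        have := Nat.le_of_dvd two_pos h5
        have := D.hp5
        omega
      · exact hb h4
    have hPc : P.card = 2 := Finset.card_pair (hne2 a ha)
    have hQc : Q.card = 2 := Finset.card_pair (hne2 _ (mul_ne_zero (inv_ne_zero hk0) ha))
    have hsum : ∑ x : ZMod p, (if x = a ∨ x = -a then 0 else 1) *
        (if k * x = a ∨ k * x = -a then 0 else 1) = ((P ∪ Q)ᶜ).card := by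
      rw [Finset.card_eq_sum_ones, ← Finset.sum_filter_add_sum_filter_not Finset.univ
        (fun x => x ∈ P ∪ Q)]
      have e0 : ∀ x ∈ Finset.univ.filter (fun x => x ∈ P ∪ Q),
          (if x = a ∨ x = -a then 0 else 1) * (if k * x = a ∨ k * x = -a then 0 else 1) = 0 := by
        intro x hx
        have hx' := (Finset.mem_filter.1 hx).2
        simp only [hP, hQ, Finset.mem_union, Finset.mem_insert, Finset.mem_singleton] at hx'
        rcases hx' with h' | h'
        · rw [if_pos h', zero_mul]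
        · rw [if_pos (h'.imp (fun e => by rw [e, mul_inv_cancel_left₀ hk0])
            (fun e => by rw [e, mul_neg, mul_inv_cancel_left₀ hk0])) (c := k * x = a ∨ k * x = -a),
            mul_zero]
      rw [Finset.sum_eq_zero e0, zero_add]
      refine Finset.sum_congr ?_ fun x hx => ?_
      · ext x; simp
      · simp only [Finset.mem_compl, hP, hQ, Finset.mem_union, Finset.mem_insert,
          Finset.mem_singleton, not_or] at hx
        rw [if_neg (not_or.2 ⟨hx.1.1, hx.1.2⟩), if_neg, one_mul]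
        rintro (e | e)
        · exact hx.2.1 (by rw [← e, inv_mul_cancel_left₀ hk0])
        · exact hx.2.2 (by rw [← neg_eq_iff_eq_neg.2 e, neg_mul_eq_mul_neg, neg_neg,
            inv_mul_cancel_left₀ hk0])
    rw [hsum, Finset.card_compl, ZMod.card]
    by_cases hc : (i : ZMod p) = j ∨ (i : ZMod p) = -(j : ZMod p)
    · rw [if_pos hc]
      have hQP : Q = P := by
        rcases hiff.1 hc with e | e
        · simp [hP, hQ, e]
        · rw [hP, hQ, e]; simp [Finset.pair_comm]
      rw [hQP, Finset.union_self, hPc, Nat.cast_sub (by have := D.hp5; omega), Nat.cast_ofNat]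
    · rw [if_neg hc]
      have hd : Disjoint P Q := by
        rw [Finset.disjoint_left]
        intro y hy hy'
        refine hc (hiff.2 ?_)
        simp only [hP, hQ, Finset.mem_insert, Finset.mem_singleton] at hy hy'
        have key : k⁻¹ * a = a ∨ k⁻¹ * a = -a := by
          rcases hy with e | e <;> rcases hy' with e' | e' <;> rw [e] at e'
          · exact Or.inl e'.symm
          · exact Or.inr (neg_eq_iff_eq_neg.1 e'.symm)
          · exact Or.inr e'.symm
          · exact Or.inl (neg_inj.1 e').symm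
        rcases key with e | e
        · exact Or.inl (inv_eq_one.1 (mul_right_cancel₀ ha (e.trans (one_mul a).symm)))
        · have := mul_right_cancel₀ ha (e.trans (neg_one_mul a).symm)
          exact Or.inr (by rw [← inv_inv k, this]; simp)
      rw [Finset.card_union_of_disjoint hd, hPc, hQc, Nat.cast_sub (by have := D.hp5; omega)]
      norm_num
  change ∑ w : ZMod p, f (w.val * k.val) * conj (f w.val) = _ at h3
  rw [hcount, ← h2, ← Finset.add_sum_erase _ _ (Finset.mem_univ (0 : ZMod p)), ← h] at h3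
  simp only [ZMod.val_zero, mul_zero, hf, pow_zero, D.phi_one, map_natCast,
    Nat.cast_sub (show 2 ≤ p by have := D.hp5; omega), Nat.cast_ofNat, map_sub, map_ofNat] at h3
  refine mul_left_cancel₀ (two_ne_zero : (2 : ℂ) ≠ 0) ?_
  split_ifs at h3 ⊢ <;> linear_combination h3

theorem fam_sum_x (D : Core M p m K x σ H φ) : ∑ χ ∈ D.fam, (χ : G → ℂ) x = 1 := by
  classical
  obtain ⟨a, ha, heig, -, -, -⟩ := local_shape D.S D.hdeg D.hns
  have h := D.sum_fam (fun χ => (χ : G → ℂ) x) (fun u => (φ : G → ℂ) (x ^ u.val)) (fun r _ => by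
      have h1 := D.gal_val r 1
      rw [pow_one, one_mul] at h1
      rw [h1, D.S.pow_eq_pow_iff'.2 (by rw [ZMod.natCast_rightInverse, Nat.cast_pow] :
        ((K ^ r : ℕ) : ZMod p) = (((((K : ℕ) : ZMod p) ^ r).val : ℕ) : ZMod p))]) (fun u => by
      exact D.value_neg (by rw [ZMod.natCast_rightInverse, ZMod.natCast_rightInverse]))
  have h1 := D.S.sum_values_pow φ
  rw [heig, if_neg (by
    rintro (h' | h')
    · exact ha h'.symm
    · exact ha (neg_eq_zero.1 h'.symm)), Nat.cast_one, mul_one,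
    ← Finset.add_sum_erase _ _ (Finset.mem_univ (0 : ZMod p)), ← h, ZMod.val_zero, pow_zero,
    D.phi_one, Nat.cast_sub (show 2 ≤ p by have := D.hp5; omega), Nat.cast_ofNat] at h1
  linear_combination h1 / 2

/-- The two further characters of the sector of `φ`. -/
theorem exists_pair (D : Core M p m K x σ H φ) :
    ∃ (μ₁ μ₂ : IrrCharacter G) (ε₁ ε₂ : ℤ) (m₁ m₂ : ℕ), μ₁ ≠ μ₂ ∧ μ₁ ∈ sector φ ∧ μ₂ ∈ sector φ ∧
      μ₁ ∉ D.fam ∧ μ₂ ∉ D.fam ∧ (ε₁ = 1 ∨ ε₁ = -1) ∧ (ε₂ = 1 ∨ ε₂ = -1) ∧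
      (∀ j : ℕ, (j : ZMod p) ≠ 0 → (μ₁ : G → ℂ) (x ^ j) = ε₁) ∧
      (∀ j : ℕ, (j : ZMod p) ≠ 0 → (μ₂ : G → ℂ) (x ^ j) = ε₂) ∧
      (charDegree (μ₁ : G → ℂ) : ℤ) = p * m₁ + ε₁ ∧ (charDegree (μ₂ : G → ℂ) : ℤ) = p * m₂ + ε₂ ∧
      (∀ χ ∈ sector φ, χ ∉ D.fam → χ ≠ μ₁ → χ ≠ μ₂ → (χ : G → ℂ) x = 0) ∧
      ∀ g : G, ¬ p ∣ orderOf g →
        (φ : G → ℂ) g + ε₁ * (μ₁ : G → ℂ) g + ε₂ * (μ₂ : G → ℂ) g = 0 := by
  classical
  set E := sector φ \ D.fam with hE
  have hone : ((1 : ℕ) : ZMod p) ≠ 0 := by rw [Nat.cast_one]; exact one_ne_zero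
  have hE2 : ∀ i j : ℕ, (i : ZMod p) ≠ 0 → (j : ZMod p) ≠ 0 →
      ∑ χ ∈ E, (χ : G → ℂ) (x ^ i) * conj ((χ : G → ℂ) (x ^ j)) = 2 := by
    intro i j hi hj
    rw [hE, Finset.sum_sdiff_eq_sub D.fam_subset, D.gram φ hi hj, D.fam_gram hi hj]
    ring
  have hconst : ∀ χ ∈ E, ∀ j : ℕ, (j : ZMod p) ≠ 0 →
      (χ : G → ℂ) (x ^ j) = (χ : G → ℂ) x := by
    intro χ hχ j hj
    have h0 : ∑ χ ∈ E, ((χ : G → ℂ) (x ^ j) - (χ : G → ℂ) x) *
        conj ((χ : G → ℂ) (x ^ j) - (χ : G → ℂ) x) = 0 := by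
      have e1 := hE2 j j hj hj
      have e2 := hE2 j 1 hj hone
      have e3 := hE2 1 j hone hj
      have e4 := hE2 1 1 hone hone
      simp only [pow_one] at e2 e3 e4
      simp only [map_sub, sub_mul, mul_sub, Finset.sum_sub_distrib]
      rw [e1, e2, e3, e4]; ring
    simp only [Complex.mul_conj] at h0
    rw [← Complex.ofReal_sum, Complex.ofReal_eq_zero,
      Finset.sum_eq_zero_iff_of_nonneg fun χ _ => Complex.normSq_nonneg _] at h0
    exact sub_eq_zero.1 (Complex.normSq_eq_zero.1 (h0 χ hχ))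
  have hint : ∀ χ ∈ E, ∃ (v : ℤ) (n : ℕ), (∀ j : ℕ, (j : ZMod p) ≠ 0 → (χ : G → ℂ) (x ^ j) = v) ∧
      (charDegree (χ : G → ℂ) : ℤ) = p * n + v := by
    intro χ hχ
    have hinv : ∀ i : ZMod p, i ≠ 0 → D.S.eigMult χ i = D.S.eigMult χ 1 := fun i hi => by
      have h := eig_invariant D.S (φ := χ) (k := i.val) (zmod_val_ne i hi) (fun j => ?_) 1
      · rwa [ZMod.natCast_rightInverse i, mul_one] at h
      · by_cases hj : (j : ZMod p) = 0
        · rw [show x ^ (j * i.val) = x ^ j from D.S.pow_eq_pow_iff'.2 (by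
            rw [Nat.cast_mul, hj, zero_mul])]
        · rw [hconst χ hχ _ (by
            rw [Nat.cast_mul]; exact mul_ne_zero hj (zmod_val_ne i hi)), hconst χ hχ j hj]
    refine ⟨(D.S.eigMult χ 0 : ℤ) - D.S.eigMult χ 1, D.S.eigMult χ 1, fun j hj => ?_, ?_⟩
    · rw [D.S.value_eig χ j, ← Finset.add_sum_erase _ _ (Finset.mem_univ (0 : ZMod p)),
        Finset.sum_congr rfl fun i hi => by rw [hinv i (Finset.mem_erase.1 hi).1],
        ← Finset.mul_sum, mul_zero, AddChar.map_zero_eq_one]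
      have h1 : ∑ i : ZMod p, zc p ((j : ZMod p) * i) = 0 := by
        rw [Finset.sum_congr rfl fun i _ => by rw [mul_comm]]
        exact (zc_sum (p := p) (j : ZMod p)).trans (if_neg hj)
      rw [← Finset.add_sum_erase _ _ (Finset.mem_univ (0 : ZMod p)), mul_zero,
        AddChar.map_zero_eq_one] at h1
      push_cast
      linear_combination (D.S.eigMult χ 1 : ℂ) * h1
    · rw [D.S.degree_eig χ, ← Finset.add_sum_erase _ _ (Finset.mem_univ (0 : ZMod p)),
        Finset.sum_congr rfl fun i hi => hinv i (Finset.mem_erase.1 hi).1, Finset.sum_const,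
        Finset.card_erase_of_mem (Finset.mem_univ _), Finset.card_univ, ZMod.card, smul_eq_mul,
        Nat.cast_add, Nat.cast_mul, Nat.cast_sub hp.out.one_le, Nat.cast_one]
      ring
  choose! v n hv hn using hint
  have hvx : ∀ χ ∈ E, (χ : G → ℂ) x = (v χ : ℂ) := fun χ hχ => by
    rw [← hv χ hχ 1 hone, pow_one]
  have hsum : ∑ χ ∈ E, v χ * v χ = 2 := by
    have h := hE2 1 1 hone hone
    simp only [pow_one] at h
    rw [Finset.sum_congr rfl (g := fun χ => ((v χ * v χ : ℤ) : ℂ)) fun χ hχ => by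
      rw [hvx χ hχ, map_intCast, Int.cast_mul]] at h
    exact_mod_cast h
  set N := E.filter fun χ => v χ ≠ 0 with hN
  have hsumN : ∑ χ ∈ N, v χ * v χ = 2 := by
    rw [← hsum, hN]
    refine Finset.sum_filter_of_ne fun χ _ h => ?_
    exact left_ne_zero_of_mul h
  have hge : ∀ χ ∈ N, 1 ≤ v χ * v χ := fun χ hχ => mul_self_pos.2 (Finset.mem_filter.1 hχ).2
  have hNc : N.card = 2 := by
    have h1 := Finset.card_nsmul_le_sum N (fun χ => v χ * v χ) 1 hge
    rw [hsumN, nsmul_one] at h1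
    have h2 : N.card ≤ 2 := by exact_mod_cast h1
    rcases (show N.card = 0 ∨ N.card = 1 ∨ N.card = 2 by omega) with e | e | e
    · rw [Finset.card_eq_zero.1 e, Finset.sum_empty] at hsumN; omega
    · obtain ⟨χ, hχ⟩ := Finset.card_eq_one.1 e
      rw [hχ, Finset.sum_singleton] at hsumN
      have hb : v χ ≤ 1 ∧ -1 ≤ v χ := by constructor <;> nlinarith
      obtain ⟨hb1, hb2⟩ := hb
      interval_cases v χ <;> norm_num at hsumN
    · exact e
  obtain ⟨μ₁, μ₂, hne, hNeq⟩ := Finset.card_eq_two.1 hNc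
  have hm₁ : μ₁ ∈ N := by rw [hNeq]; exact Finset.mem_insert_self _ _
  have hm₂ : μ₂ ∈ N := by rw [hNeq]; exact Finset.mem_insert_of_mem (Finset.mem_singleton_self _)
  rw [hNeq, Finset.sum_pair hne] at hsumN
  have g1 := hge μ₁ hm₁
  have g2 := hge μ₂ hm₂
  have hv1 : v μ₁ = 1 ∨ v μ₁ = -1 := mul_self_eq_one_iff.1 (by omega)
  have hv2 : v μ₂ = 1 ∨ v μ₂ = -1 := mul_self_eq_one_iff.1 (by omega)
  obtain ⟨hE₁, -⟩ := Finset.mem_filter.1 hm₁
  obtain ⟨hE₂, -⟩ := Finset.mem_filter.1 hm₂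
  obtain ⟨hs₁, hf₁⟩ := Finset.mem_sdiff.1 hE₁
  obtain ⟨hs₂, hf₂⟩ := Finset.mem_sdiff.1 hE₂
  refine ⟨μ₁, μ₂, v μ₁, v μ₂, n μ₁, n μ₂, hne, hs₁, hs₂, hf₁, hf₂, hv1, hv2, hv μ₁ hE₁, hv μ₂ hE₂,
    hn μ₁ hE₁, hn μ₂ hE₂, fun χ hχ hχf h1 h2 => ?_, fun g hg => ?_⟩
  · have hχE : χ ∈ E := Finset.mem_sdiff.2 ⟨hχ, hχf⟩
    rw [hvx χ hχE]
    have : χ ∉ N := by rw [hNeq]; simp [h1, h2]
    rw [hN, Finset.mem_filter, not_and, not_not] at this
    rw [this hχE, Int.cast_zero]
  · have h := D.regular_orth φ hg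
    rw [← Finset.sum_sdiff D.fam_subset, ← hE,
      ← Finset.sum_subset (Finset.filter_subset (fun χ => v χ ≠ 0) E) (fun χ hχ hχN => by
        rw [hN, Finset.mem_filter, not_and, not_not] at *
        rw [hvx χ hχ, hχN hχ]; simp),
      ← hN, hNeq, Finset.sum_pair hne, hvx μ₁ hE₁, hvx μ₂ hE₂, map_intCast, map_intCast,
      Finset.sum_congr rfl (g := fun χ : IrrCharacter G => (φ : G → ℂ) g * conj ((χ : G → ℂ) x))
        fun χ hχ => by rw [D.fam_reg hχ hg], ← Finset.mul_sum, ← map_sum, D.fam_sum_x, map_one,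
      mul_one] at h
    linear_combination h

end Core

end Cfsg.Agent.Blocks.DegreePMinusTwo
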